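import Cfsg.Agent.S4293
import Cfsg.Agent.S3359
import Cfsg.Agent.H9.AmD

/-! Backup assembly for S4294 (Amitsur): a non-solvable finite subgroup of the units of a
division ring is `SL(2,5)`, given the centralizer case and the index-two case as hypotheses. -/

set_option autoImplicit false

namespace H5.AmS

theorem asm {D : Type*} [DivisionRing D]
    (cent : ∀ [CharZero D] (f : Matrix.SpecialLinearGroup (Fin 2) (ZMod 5) →* Dˣ)
      (_ : Function.Injective f) (x : Dˣ) (l : ℕ) (_ : l.Prime) (_ : l ≠ 2) (_ : l ≠ 5)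
      (_ : orderOf x = l) (_ : ∀ g, Commute x (f g)), False)
    (idx2 : ∀ [CharZero D] (H : Subgroup Dˣ) (S : Subgroup H) [S.Normal] (_ : S.index = 2)
      (_ : S ≃* Matrix.SpecialLinearGroup (Fin 2) (ZMod 5)), False)
    (H : Subgroup Dˣ) [Finite H] (hH : ¬ Group.IsSolvable H) :
    Nonempty (H ≃* Matrix.SpecialLinearGroup (Fin 2) (ZMod 5)) := by
  classical
  have hcomm : ¬ ∀ a b : H, a * b = b * a := fun h => hH (Group.isSolvable_of_comm h)
  obtain ⟨p, hp⟩ := CharP.exists D
  rcases CharP.char_is_prime_or_zero D p with hpp | rfl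
  · haveI : Fact p.Prime := ⟨hpp⟩
    exact absurd (fun a b => H9.AmD.pP H p a b) hcomm
  haveI : CharZero D := CharP.charP_to_charZero D
  have hne : H ≠ ⊥ := by
    rintro rfl
    exact hcomm (fun a b => Subsingleton.elim _ _)
  obtain ⟨G₀, hN, hidx, S, M, hsup, -, hcom, ⟨e⟩, -, hcop⟩ :=
    Cfsg.Agent.S3359.result hH (Cfsg.Agent.S4293.result H hne)
  have hM : M = ⊥ := by
    by_contra hM
    have h1 : Nat.card M ≠ 1 := fun h => hM (Subgroup.card_eq_one.mp h)
    obtain ⟨l, hl, hd⟩ := Nat.exists_prime_and_dvd h1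
    haveI : Fact l.Prime := ⟨hl⟩
    obtain ⟨x, hx⟩ := exists_prime_orderOf_dvd_card' l hd
    have hc : l.Coprime 30 := Nat.Coprime.coprime_dvd_left hd hcop
    have h2 : l ≠ 2 := by
      rintro rfl
      norm_num at hc
    have h5 : l ≠ 5 := by
      rintro rfl
      norm_num at hc
    refine cent (H.subtype.comp (S.subtype.comp e.symm.toMonoidHom)) ?_ ((x : H) : Dˣ) l hl h2 h5 ?_ ?_
    · exact (H.subtype_injective.comp S.subtype_injective).comp e.symm.injective
    · rw [Subgroup.orderOf_coe, Subgroup.orderOf_coe, hx]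
    · intro g
      have := hcom (e.symm g : S) (e.symm g).2 x x.2
      have h' := congrArg (fun y : H => (y : Dˣ)) this
      simp only [Subgroup.coe_mul] at h'
      exact h'.symm
  have hS : S = G₀ := by rw [← hsup, hM, sup_bot_eq]
  subst hS
  rcases hidx with hi | hi
  · have : S = ⊤ := Subgroup.index_eq_one.mp hi
    subst this
    exact ⟨Subgroup.topEquiv.symm.trans e⟩
  · exact (idx2 H S hi e).elim

end H5.AmS
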