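import Mathlib

/-! Numerical inequalities for the weights used in the bound `k(G) ^ 2 ≤ 3 ^ (n - 1)`. -/

namespace Cfsg.Agent.H5.KQ

/-- the number `1 / √3` -/
noncomputable def v : ℝ := Real.sqrt 3 / 3

theorem v_sq : v * v = 1 / 3 := by
  unfold v
  have := Real.mul_self_sqrt (show (0 : ℝ) ≤ 3 by norm_num)
  nlinarith

theorem v_pos : 0 < v := by unfold v; positivity

theorem v_lo : 0.577 < v := by
  have h1 := v_sq
  have h2 := v_pos
  by_contra h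
  push Not at h
  nlinarith

theorem v_hi : v < 0.5774 := by
  have h1 := v_sq
  have h2 := v_pos
  by_contra h
  push Not at h
  nlinarith

/-- weight of an orbit -/
noncomputable def om (m : ℕ) : ℝ := if m = 2 then 2 / 3 else v

/-- extra weight of a marked orbit -/
noncomputable def rh (m : ℕ) : ℝ := if m ≤ 2 then 1 else (3 * v + 1) / 2

theorem om_pos (m : ℕ) : 0 < om m := by
  unfold om; split_ifs
  · norm_num
  · exact v_pos

theorem om_le (m : ℕ) : om m ≤ 2 / 3 := by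
  unfold om; split_ifs
  · norm_num
  · linarith [v_hi]

theorem v_le_om (m : ℕ) : v ≤ om m := by
  unfold om; split_ifs
  · linarith [v_hi]
  · exact le_rfl

theorem one_le_rh (m : ℕ) : 1 ≤ rh m := by
  unfold rh; split_ifs
  · exact le_rfl
  · linarith [v_lo]

theorem om_one : om 1 = v := by simp [om]

theorem rh_one : rh 1 = 1 := by simp [rh]

theorem pow_le_om (m : ℕ) (hm : 1 ≤ m) : v ^ m ≤ om m := by
  refine le_trans ?_ (v_le_om m)
  have := pow_le_pow_of_le_one v_pos.le (by linarith [v_hi]) hm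
  simpa using this

theorem kind (a : ℕ) (ha : 1 ≤ a) :
    (a = 1 ∧ om a = v ∧ rh a = 1 ∧ v ^ a = v) ∨ (a = 2 ∧ om a = 2 / 3 ∧ rh a = 1 ∧ v ^ a = 1 / 3) ∨
    (3 ≤ a ∧ om a = v ∧ rh a = (3 * v + 1) / 2 ∧ 0 ≤ v ^ a ∧ v ^ a ≤ v / 3) := by
  rcases Nat.lt_or_ge a 3 with h | h
  · obtain rfl | rfl : a = 1 ∨ a = 2 := by omega
    · left; simp [om, rh]
    · right; left
      refine ⟨rfl, by simp [om], by simp [rh], ?_⟩
      rw [pow_two, v_sq]
  · right; right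
    refine ⟨h, by simp [om]; omega, by simp [rh]; omega, pow_nonneg v_pos.le _, ?_⟩
    have := pow_le_pow_of_le_one v_pos.le (by linarith [v_hi]) h
    have h2 : v ^ 3 = v / 3 := by
      rw [pow_succ, pow_two, v_sq]; ring
    linarith

/-- the invariant of the recursion over the parts -/
def Inv (m : ℕ) (p q e : ℝ) : Prop :=
  (m = 0 ∧ p = 1 ∧ q = 0 ∧ e = 1) ∨ (m = 1 ∧ p = v ∧ q = v ∧ e = v) ∨
  (m = 2 ∧ p = 2 / 3 ∧ q = 2 / 3 ∧ e = 1 / 3) ∨
  (3 ≤ m ∧ p = v ∧ q = (1 + v) / 2 ∧ 0 ≤ e ∧ e ≤ v / 3) ∨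
  (2 ≤ m ∧ 0 ≤ p ∧ p ≤ 4 / 9 ∧ 0 ≤ q ∧ 0 ≤ e ∧ q + e ≤ 1 ∧ p + q ≤ (3 * v + 1) / 2)

theorem inv_step {m a : ℕ} {p q e : ℝ} (ha : 1 ≤ a) (h : Inv m p q e) :
    Inv (a + m) (om a * p) (om a * q + om a * rh a * p) (v ^ a * e) := by
  have h1 := v_sq
  have h2 := v_lo
  have h3 := v_hi
  rcases h with ⟨rfl, rfl, rfl, rfl⟩ | h
  · rcases kind a ha with ⟨rfl, k1, k2, k3⟩ | ⟨rfl, k1, k2, k3⟩ | ⟨k0, k1, k2, k3, k4⟩
    · right; left; rw [k1, k2, k3]; simp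
    · right; right; left; rw [k1, k2, k3]; simp
    · right; right; right; left
      rw [k1, k2]
      refine ⟨by omega, by ring, by nlinarith, by simpa using k3, by simpa using k4⟩
  right; right; right; right
  rcases h with ⟨rfl, rfl, rfl, rfl⟩ | ⟨rfl, rfl, rfl, rfl⟩ | ⟨h0, rfl, rfl, h4, h5⟩ |
      ⟨h0, h4, h5, h6, h7, h8, h9⟩ <;>
    rcases kind a ha with ⟨rfl, k1, k2, k3⟩ | ⟨rfl, k1, k2, k3⟩ | ⟨k0, k1, k2, k3, k4⟩ <;>
    rw [k1, k2] <;> (try rw [k3]) <;>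
    refine ⟨by omega, by nlinarith, by nlinarith, by nlinarith, by positivity, by nlinarith,
      by nlinarith⟩

theorem inv {ι : Type*} (s : Finset ι) (f : ι → ℕ) (hf : ∀ i, 1 ≤ f i) :
    Inv (∑ i ∈ s, f i) (∏ i ∈ s, om (f i)) ((∏ i ∈ s, om (f i)) * ∑ i ∈ s, rh (f i))
      (v ^ (∑ i ∈ s, f i)) := by
  classical
  induction s using Finset.induction_on with
  | empty => left; simp
  | insert i s hi ih =>
    rw [Finset.sum_insert hi, Finset.prod_insert hi, Finset.sum_insert hi, pow_add]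
    have := inv_step (hf i) ih
    convert this using 1
    ring

theorem A {m : ℕ} {p q e : ℝ} (h : Inv m p q e) (hm : 1 ≤ m) : p ≤ om m := by
  have h2 := v_lo
  rcases h with ⟨rfl, -⟩ | ⟨rfl, rfl, -⟩ | ⟨rfl, rfl, -⟩ | ⟨-, rfl, -⟩ | ⟨-, -, h, -⟩
  · omega
  · exact v_le_om _
  · simp [om]
  · exact v_le_om _
  · linarith [v_le_om m]

theorem I1 {m : ℕ} {p q : ℝ} (h : Inv m p q (v ^ m)) (hm : 1 ≤ m) :
    v ^ (m + 1) + v * q ≤ om (m + 1) := by
  have h1 := v_sq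
  have h2 := v_lo
  have h3 := v_hi
  have h4 := v_le_om (m + 1)
  rw [pow_succ]
  rcases h with ⟨rfl, -⟩ | ⟨rfl, -, rfl, he⟩ | ⟨rfl, -, rfl, he⟩ | ⟨-, -, rfl, -, he⟩ |
    ⟨-, -, -, -, -, h, -⟩
  · omega
  · rw [he]; simp only [om]; norm_num; linarith
  · rw [he]; linarith
  · nlinarith
  · nlinarith

theorem I2 {m : ℕ} {p q e : ℝ} (h : Inv m p q e) :
    v * (p + q) ≤ rh (m + 1) * om (m + 1) := by
  have h1 := v_sq
  have h2 := v_lo
  have h3 := v_hi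
  have h5 : 2 ≤ m → rh (m + 1) * om (m + 1) = (3 * v + 1) / 2 * v := by
    intro hm
    rw [rh, om, if_neg (by omega), if_neg (by omega)]
  rcases h with ⟨rfl, rfl, rfl, -⟩ | ⟨rfl, rfl, rfl, -⟩ | ⟨rfl, rfl, rfl, -⟩ | ⟨h0, rfl, rfl, -⟩ |
    ⟨h0, -, -, -, -, -, h⟩
  · simp [rh, om]
  · simp only [rh, om]; norm_num; linarith
  · rw [h5 le_rfl]; nlinarith
  · rw [h5 (by omega)]; nlinarith
  · rw [h5 h0]; nlinarith

theorem I3 {m : ℕ} {p q p' q' e' : ℝ} (h : Inv (m + 1) p q (v ^ (m + 1))) (h' : Inv m p' q' e')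
    (hq : 0 ≤ q) (hp' : 0 ≤ p') :
    q * (v * p') ≤ om (m + 1) * om (m + 1) := by
  have h1 := v_sq
  have h2 := v_lo
  have h3 := v_hi
  rcases Nat.eq_zero_or_pos m with rfl | hm
  · have e1 : q = v := by
      rcases h with ⟨h, -⟩ | ⟨-, -, h, -⟩ | ⟨h, -⟩ | ⟨h, -⟩ | ⟨h, -⟩
      · omega
      · exact h
      all_goals omega
    have e2 : p' = 1 := by
      rcases h' with ⟨-, h, -⟩ | ⟨h, -⟩ | ⟨h, -⟩ | ⟨h, -⟩ | ⟨h, -⟩
      · exact h
      all_goals omega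
    rw [e1, e2]; simp [om]
  have hA := A h' hm
  have hB : q + v ^ (m + 1) ≤ 1 := by
    rcases h with ⟨h, -⟩ | ⟨h, -⟩ | ⟨-, -, rfl, he⟩ | ⟨-, -, rfl, -, he⟩ | ⟨-, -, -, -, -, h, -⟩
    · omega
    · omega
    · rw [he]; norm_num
    · linarith
    · exact h
  have hv : 0 ≤ v ^ (m + 1) := pow_nonneg v_pos.le _
  rcases kind m hm with ⟨rfl, k1, -⟩ | ⟨rfl, k1, -⟩ | ⟨k0, k1, -⟩
  · rw [k1] at hA
    have : om (1 + 1) = 2 / 3 := by simp [om]
    rw [this]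
    have h6 : v * p' ≤ 1 / 3 := by nlinarith
    have h7 : 0 ≤ v * p' := by positivity
    nlinarith
  · rw [k1] at hA
    have : om (2 + 1) = v := by simp [om]
    rw [this]
    have h5 : v ^ (2 + 1) = v / 3 := by
      rw [pow_succ, pow_two, v_sq]; ring
    rw [h5] at hB
    have h6 : v * p' ≤ 0.385 := by nlinarith
    have h7 : 0 ≤ v * p' := by positivity
    have h8 : q ≤ 0.81 := by linarith
    nlinarith
  · rw [k1] at hA
    have : om (m + 1) = v := by rw [om, if_neg (by omega)]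
    rw [this]
    have h6 : v * p' ≤ 1 / 3 := by nlinarith
    have h7 : 0 ≤ v * p' := by positivity
    nlinarith

end Cfsg.Agent.H5.KQ
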