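import Cfsg.Agent.H5.KP
import Cfsg.Agent.H5.KQ

/-! Class numbers of permutation groups: the bound `k(G) ^ 2 ≤ 3 ^ (n - 1)` for degree `n ≥ 3`,
by a weighted version of the induction along the cycles of an element. -/

namespace Cfsg.Agent.H5.KR

open MulAction KP KQ

variable {G : Type*} [Group G] {α : Type*} [MulAction G α] [Fintype α]

/-- orbit of a point -/
abbrev mk (H : Subgroup G) (a : α) : orbitRel.Quotient H α := Quotient.mk'' a

omit [Fintype α] in
theorem mk_eq (H : Subgroup G) (a b : α) : mk H a = mk H b ↔ ∃ h ∈ H, h • b = a := by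
  rw [← rel_iff]; exact Quotient.eq''

open Classical in
/-- size of an orbit -/
noncomputable def sz (H : Subgroup G) (q : orbitRel.Quotient H α) : ℕ :=
  (Finset.univ.filter (fun a => mk H a = q)).card

open Classical in
/-- the potential -/
noncomputable def W (α : Type*) [MulAction G α] [Fintype α] (H : Subgroup G) : ℝ :=
  ∏ q : orbitRel.Quotient H α, om (sz H q)

open Classical in
/-- orbits of the smaller group inside an orbit of the larger one -/
noncomputable def fib {K L : Subgroup G} (h : K ≤ L) (c : orbitRel.Quotient L α) :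
    Finset (orbitRel.Quotient K α) := Finset.univ.filter (fun q => up (α := α) h q = c)

theorem mem_fib {K L : Subgroup G} (h : K ≤ L) (c : orbitRel.Quotient L α) (a : α) :
    mk K a ∈ fib h c ↔ mk L a = c := by
  classical
  unfold fib
  rw [Finset.mem_filter]
  exact ⟨fun h => h.2, fun h => ⟨Finset.mem_univ _, h⟩⟩

theorem sz_pos (H : Subgroup G) (q : orbitRel.Quotient H α) : 1 ≤ sz H q := by
  classical
  obtain ⟨a, rfl⟩ := Quotient.mk''_surjective q
  unfold sz
  exact Finset.card_pos.2 ⟨a, by simp⟩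

theorem sz_one (H : Subgroup G) (a : α) (h : ∀ k ∈ H, k • a = a) : sz H (mk H a) = 1 := by
  classical
  unfold sz
  rw [Finset.card_eq_one]
  refine ⟨a, ?_⟩
  ext b
  simp only [Finset.mem_filter, Finset.mem_univ, true_and, Finset.mem_singleton, mk_eq]
  constructor
  · rintro ⟨k, hk, rfl⟩; exact h k hk
  · rintro rfl; exact ⟨1, one_mem _, one_smul _ _⟩

theorem sz_sum {K L : Subgroup G} (h : K ≤ L) (c : orbitRel.Quotient L α) :
    ∑ q ∈ fib h c, sz K q = sz L c := by
  classical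
  unfold sz
  rw [Finset.card_eq_sum_card_fiberwise (f := fun a => mk K a) (t := fib h c)]
  · apply Finset.sum_congr rfl
    intro q hq
    congr 1
    ext a
    simp only [Finset.mem_filter, Finset.mem_univ, true_and]
    constructor
    · intro h1
      exact ⟨(mem_fib h c a).1 (h1 ▸ hq), h1⟩
    · exact fun h1 => h1.2
  · intro a ha
    simp only [Finset.coe_filter, Finset.mem_univ, true_and, Set.mem_ofPred_eq] at ha
    exact (mem_fib h c a).2 ha

open Classical in
theorem sz_total (H : Subgroup G) : ∑ q : orbitRel.Quotient H α, sz H q = Fintype.card α := by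
  unfold sz
  rw [← Finset.card_univ, Finset.card_eq_sum_card_fiberwise (f := fun a => mk H a)
    (t := Finset.univ) (fun _ _ => by simp)]

/-- product of the weights over a fibre -/
noncomputable def pf {K L : Subgroup G} (h : K ≤ L) (c : orbitRel.Quotient L α) : ℝ :=
  ∏ q ∈ fib h c, om (sz K q)

theorem pf_pos {K L : Subgroup G} (h : K ≤ L) (c : orbitRel.Quotient L α) : 0 < pf h c :=
  Finset.prod_pos (fun _ _ => om_pos _)

theorem pf_le {K L : Subgroup G} (h : K ≤ L) (c : orbitRel.Quotient L α) :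
    pf h c ≤ om (sz L c) := by
  have := inv (fib h c) (sz K) (sz_pos K)
  rw [sz_sum] at this
  exact A this (sz_pos L c)

open Classical in
theorem W_fib {K L : Subgroup G} (h : K ≤ L) : W α K = ∏ c, pf (α := α) h c := by
  unfold W pf fib
  rw [Finset.prod_fiberwise]

open Classical in
/-- the product of the remaining weights -/
noncomputable def rest (L : Subgroup G) (c : orbitRel.Quotient L α) : ℝ :=
  ∏ d ∈ Finset.univ.erase c, om (sz L d)

theorem rest_pos (L : Subgroup G) (c : orbitRel.Quotient L α) : 0 < rest L c :=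
  Finset.prod_pos (fun _ _ => om_pos _)

theorem W_rest (L : Subgroup G) (c : orbitRel.Quotient L α) :
    W α L = om (sz L c) * rest L c := by
  classical
  unfold W rest
  rw [Finset.mul_prod_erase _ (fun d => om (sz L d)) (Finset.mem_univ c)]

theorem W_le1 {K L : Subgroup G} (h : K ≤ L) (c : orbitRel.Quotient L α) :
    W α K ≤ pf h c * rest L c := by
  classical
  rw [W_fib h, ← Finset.mul_prod_erase _ _ (Finset.mem_univ c)]
  apply mul_le_mul_of_nonneg_left _ (pf_pos h c).le
  unfold rest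
  exact Finset.prod_le_prod (fun d _ => (pf_pos h d).le) (fun d _ => pf_le h d)

theorem W_le2 {K L : Subgroup G} (h : K ≤ L) (c d : orbitRel.Quotient L α) (hcd : d ≠ c) :
    ∃ R : ℝ, 0 < R ∧ W α K ≤ pf h c * pf h d * R ∧ W α L = om (sz L c) * om (sz L d) * R := by
  classical
  have hd : d ∈ Finset.univ.erase c := by simp [hcd]
  refine ⟨∏ e ∈ (Finset.univ.erase c).erase d, om (sz L e),
    Finset.prod_pos (fun _ _ => om_pos _), ?_, ?_⟩
  · rw [W_fib h, ← Finset.mul_prod_erase _ _ (Finset.mem_univ c), ← Finset.mul_prod_erase _ _ hd,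
      ← mul_assoc]
    apply mul_le_mul_of_nonneg_left _ (mul_pos (pf_pos h c) (pf_pos h d)).le
    exact Finset.prod_le_prod (fun d _ => (pf_pos h d).le) (fun d _ => pf_le h d)
  · unfold W
    rw [← Finset.mul_prod_erase _ (fun d => om (sz L d)) (Finset.mem_univ c),
      ← Finset.mul_prod_erase _ (fun d => om (sz L d)) hd, ← mul_assoc]

theorem W_ge (H : Subgroup G) : v ^ Fintype.card α ≤ W α H := by
  classical
  rw [← sz_total H, ← Finset.prod_pow_eq_pow_sum]
  unfold W
  exact Finset.prod_le_prod (fun _ _ => pow_nonneg v_pos.le _)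
    (fun q _ => pow_le_om _ (sz_pos H q))

theorem W_le (H : Subgroup G) (h : 1 ≤ Fintype.card α) : W α H ≤ om (Fintype.card α) := by
  classical
  have := inv Finset.univ (sz (α := α) H) (sz_pos H)
  rw [sz_total] at this
  exact A this h

theorem sz_mul [Finite G] (H K : Subgroup G) (a : α) (h : ∀ k, k ∈ K ↔ k ∈ H ∧ k • a = a) :
    sz H (mk H a) * Nat.card K = Nat.card H := by
  classical
  have h1 : sz H (mk H a) = (stabilizer H a).index := by
    rw [index_stabilizer, ← Nat.card_coe_set_eq]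
    unfold sz
    rw [← Nat.card_eq_finsetCard]
    apply Nat.card_congr
    refine Equiv.subtypeEquivRight ?_
    intro b
    simp only [Finset.mem_filter, Finset.mem_univ, true_and, mk_eq, mem_orbit_iff]
    constructor
    · rintro ⟨k, hk, rfl⟩; exact ⟨⟨k, hk⟩, rfl⟩
    · rintro ⟨k, rfl⟩; exact ⟨k, k.2, rfl⟩
  have h2 : Nat.card K = Nat.card (stabilizer H a) := by
    apply Nat.card_congr
    exact ⟨fun k => ⟨⟨k, ((h k).1 k.2).1⟩, ((h k).1 k.2).2⟩,
      fun k => ⟨k.1, (h _).2 ⟨k.1.2, k.2⟩⟩, fun _ => rfl, fun _ => rfl⟩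
  rw [h1, h2, mul_comm, Subgroup.card_mul_index]

variable [DecidableEq α]

omit [Fintype α] in
theorem conj_iff (D : Finset α) (g : G) (a b : α) :
    mk (pw G (D.image (fun d => g • d))) (g • a) = mk _ (g • b) ↔ mk (pw G D) a = mk _ b := by
  rw [mk_eq, mk_eq]
  constructor
  · rintro ⟨h, h1, h2⟩
    refine ⟨g⁻¹ * h * g, ?_, ?_⟩
    · intro d hd
      have := h1 (g • d) (Finset.mem_image.2 ⟨d, hd, rfl⟩)
      simp [mul_smul, this]
    · simp [mul_smul, h2]
  · rintro ⟨h, h1, h2⟩
    refine ⟨g * h * g⁻¹, ?_, ?_⟩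
    · intro d hd
      obtain ⟨e, he, rfl⟩ := Finset.mem_image.1 hd
      simp [mul_smul, h1 e he]
    · simp [mul_smul, h2]

theorem sz_conj (D : Finset α) (g : G) (a : α) :
    sz (pw G (D.image (fun d => g • d))) (mk _ (g • a)) = sz (pw G D) (mk _ a) := by
  classical
  unfold sz
  symm
  apply Finset.card_bij (fun b _ => g • b)
  · intro b hb
    simp only [Finset.mem_filter, Finset.mem_univ, true_and] at hb ⊢
    exact (conj_iff D g b a).2 hb
  · intro b _ c _ h
    exact smul_left_cancel g h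
  · intro b hb
    simp only [Finset.mem_filter, Finset.mem_univ, true_and] at hb ⊢
    refine ⟨g⁻¹ • b, ?_, by simp⟩
    rw [← conj_iff D g, smul_inv_smul]
    exact hb

theorem W_conj (D : Finset α) (g : G) :
    W α (pw G (D.image (fun d => g • d))) = W α (pw G D) := by
  classical
  symm
  unfold W
  let e : orbitRel.Quotient (pw G D) α ≃ orbitRel.Quotient (pw G (D.image (fun d => g • d))) α :=
    Quotient.congr (MulAction.toPerm g) (by
      intro a b
      rw [← Quotient.eq'', ← Quotient.eq'']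
      exact (conj_iff D g a b).symm)
  apply Fintype.prod_equiv e
  intro q
  obtain ⟨a, rfl⟩ := Quotient.mk''_surjective q
  exact congrArg om (sz_conj D g a).symm

omit [Fintype α] in
theorem card_conj (D : Finset α) (g : G) :
    Nat.card (pw G (D.image (fun d => g • d))) = Nat.card (pw G D) := by
  apply Nat.card_congr
  refine ⟨fun h => ⟨g⁻¹ * h * g, ?_⟩, fun h => ⟨g * h * g⁻¹, ?_⟩, ?_, ?_⟩
  · intro d hd
    have := h.2 (g • d) (Finset.mem_image.2 ⟨d, hd, rfl⟩)
    simp [mul_smul, this]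
  · intro d hd
    obtain ⟨e, he, rfl⟩ := Finset.mem_image.1 hd
    simp [mul_smul, h.2 e he]
  · intro h; apply Subtype.ext; simp [mul_assoc]
  · intro h; apply Subtype.ext; simp [mul_assoc]

omit [Fintype α] in
theorem mem_pw_insert (D : Finset α) (a : α) (k : G) :
    k ∈ pw G (insert a D) ↔ k ∈ pw G D ∧ k • a = a := by
  simp only [mem_pw, Finset.mem_insert, forall_eq_or_imp]
  tauto

/-- the statement for a marked point -/
def Op (G : Type*) [Group G] [MulAction G α] (D : Finset α) : Prop :=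
  ∀ (g : G) (a : α), (∀ d ∈ D, g • d ∈ D ∨ g • d = a) →
    ∃ T : Finset G, T.card * v ^ Fintype.card α ≤ rh (sz (pw G D) (mk _ a)) * W α (pw G D) ∧
      Cov D g a T

/-- the statement without a marked point -/
def Cl (G : Type*) [Group G] [MulAction G α] (D : Finset α) : Prop :=
  ∀ (g : G), (∀ d ∈ D, g • d ∈ D) →
    ∃ T : Finset G, T.card * v ^ Fintype.card α ≤ W α (pw G D) ∧
      ∀ x : G, (∀ d ∈ D, x • d = g • d) → ∃ y ∈ T, ∃ k ∈ pw G D, x = k * y * k⁻¹

theorem step (D : Finset α) (g : G) (a : α) (ih : Op G (insert a D))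
    (hgD : ∀ d ∈ D, g • d ∈ insert a D)
    (hKL : pw G (insert a D) ≤ pw G (D.image (fun d => g • d)))
    (S : Finset (orbitRel.Quotient (pw G (insert a D)) α)) (hS : S ⊆ fib hKL (mk _ (g • a))) :
    ∃ T : Finset G, T.card * v ^ Fintype.card α ≤
        W α (pw G (insert a D)) * ∑ q ∈ S, rh (sz _ q) ∧
      ∀ x : G, (∀ d ∈ D, x • d = g • d) → mk _ (x • a) ∈ S →
        ∃ y ∈ T, ∃ k ∈ pw G (insert a D), x = k * y * k⁻¹ := by
  classical
  have hq : ∀ q ∈ S, ∃ T : Finset G,
      T.card * v ^ Fintype.card α ≤ rh (sz _ q) * W α (pw G (insert a D)) ∧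
      ∀ x : G, (∀ d ∈ D, x • d = g • d) → mk _ (x • a) = q →
        ∃ y ∈ T, ∃ k ∈ pw G (insert a D), x = k * y * k⁻¹ := by
    intro q hq
    obtain ⟨b, rfl⟩ := Quotient.mk''_surjective q
    obtain ⟨l, hl, hlb⟩ := (mk_eq _ _ _).1 ((mem_fib hKL _ b).1 (hS hq))
    have hlg : ∀ d ∈ D, (l * g) • d = g • d := by
      intro d hd
      rw [mul_smul]
      exact hl _ (Finset.mem_image.2 ⟨d, hd, rfl⟩)
    obtain ⟨T, hT1, hT2⟩ := ih (l * g) b (by
      intro d hd
      rcases Finset.mem_insert.1 hd with rfl | hd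
      · right; rw [mul_smul, hlb]
      · left; rw [hlg d hd]; exact hgD d hd)
    refine ⟨T, hT1, ?_⟩
    intro x hx hxa
    obtain ⟨k0, hk0, hk0b⟩ := (mk_eq _ _ _).1 hxa
    obtain ⟨y, hy, k, hk, -, hxy⟩ := hT2 (k0⁻¹ * x * k0) (by
      intro d hd
      rw [mul_smul, mul_smul, hk0 d hd]
      rcases Finset.mem_insert.1 hd with rfl | hd
      · rw [← hk0b, inv_smul_smul, mul_smul, hlb]
      · rw [hlg d hd, hx d hd]
        exact (pw G _).inv_mem hk0 _ (hgD d hd))
    refine ⟨y, hy, k0 * k, mul_mem hk0 hk, ?_⟩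
    have : x = k0 * (k0⁻¹ * x * k0) * k0⁻¹ := by group
    rw [this, hxy]; group
  choose! Tq hT1 hT2 using hq
  refine ⟨S.biUnion Tq, ?_, ?_⟩
  · have h0 : ((S.biUnion Tq).card : ℝ) ≤ ∑ q ∈ S, ((Tq q).card : ℝ) := by
      exact_mod_cast Finset.card_biUnion_le
    calc _ ≤ (∑ q ∈ S, ((Tq q).card : ℝ)) * v ^ Fintype.card α :=
          mul_le_mul_of_nonneg_right h0 (pow_nonneg v_pos.le _)
      _ = ∑ q ∈ S, ((Tq q).card : ℝ) * v ^ Fintype.card α := Finset.sum_mul _ _ _
      _ ≤ ∑ q ∈ S, rh (sz _ q) * W α (pw G (insert a D)) := Finset.sum_le_sum hT1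
      _ = _ := by rw [← Finset.sum_mul, mul_comm]
  · intro x hx hmem
    obtain ⟨y, hy, k, hk, hxy⟩ := hT2 _ hmem x hx rfl
    exact ⟨y, Finset.mem_biUnion.2 ⟨_, hmem, hy⟩, k, hk, hxy⟩

theorem mem_top (D : Finset α) (g : G) (a : α)
    (hKL : pw G (insert a D) ≤ pw G (D.image (fun d => g • d)))
    (x : G) (hx : ∀ d ∈ D, x • d = g • d) : mk _ (x • a) ∈ fib hKL (mk _ (g • a)) := by
  rw [mem_fib, mk_eq]
  refine ⟨x * g⁻¹, ?_, by simp [mul_smul]⟩
  intro d hd
  obtain ⟨e, he, rfl⟩ := Finset.mem_image.1 hd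
  simp [mul_smul, hx e he]

omit [DecidableEq α] in
open Classical in
theorem fib_split {K L : Subgroup G} (h : K ≤ L) (e : α) (he : ∀ k ∈ K, k • e = e) :
    ∃ m : ℕ, sz L (mk L e) = m + 1 ∧
      Inv m (∏ q ∈ (fib h (mk L e)).erase (mk K e), om (sz K q))
        ((∏ q ∈ (fib h (mk L e)).erase (mk K e), om (sz K q)) *
          ∑ q ∈ (fib h (mk L e)).erase (mk K e), rh (sz K q)) (v ^ m) ∧
      pf h (mk L e) = v * ∏ q ∈ (fib h (mk L e)).erase (mk K e), om (sz K q) ∧
      ∑ q ∈ fib h (mk L e), rh (sz K q) =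
        1 + ∑ q ∈ (fib h (mk L e)).erase (mk K e), rh (sz K q) := by
  have hm : mk K e ∈ fib h (mk L e) := (mem_fib h _ e).2 rfl
  have h1 := sz_one K e he
  refine ⟨∑ q ∈ (fib h (mk L e)).erase (mk K e), sz K q, ?_, inv _ _ (sz_pos K), ?_, ?_⟩
  · rw [← sz_sum h, ← Finset.add_sum_erase _ _ hm, h1, add_comm]
  · unfold pf
    rw [← Finset.mul_prod_erase _ (fun q => om (sz K q)) hm, h1, om_one]
  · rw [← Finset.add_sum_erase _ (fun q => rh (sz K q)) hm, h1, rh_one]

omit [DecidableEq α] in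
theorem diff_bound {K L : Subgroup G} (h : K ≤ L) (e : α) (he : ∀ k ∈ K, k • e = e)
    (c : orbitRel.Quotient L α) (hc : mk L e ≠ c) (hs : sz L c = sz L (mk L e)) :
    W α K * ∑ q ∈ fib h c, rh (sz K q) ≤ W α L := by
  obtain ⟨m, h1, h2, h3, -⟩ := fib_split h e he
  obtain ⟨R, hR, h4, h5⟩ := W_le2 h c (mk L e) hc
  have h6 := inv (fib h c) (sz K) (sz_pos K)
  rw [sz_sum, hs, h1] at h6
  have h7 : 0 ≤ ∑ q ∈ fib h c, rh (sz K q) :=
    Finset.sum_nonneg (fun q _ => by linarith [one_le_rh (sz K q)])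
  have h8 := I3 h6 h2 (mul_nonneg (pf_pos h c).le h7)
    (Finset.prod_nonneg (fun q _ => (om_pos _).le))
  rw [h5, hs, h1]
  rw [← h3] at h8
  calc _ ≤ (pf h c * pf h (mk L e) * R) * ∑ q ∈ fib h c, rh (sz K q) :=
        mul_le_mul_of_nonneg_right h4 h7
    _ = ((pf h c * ∑ q ∈ fib h c, rh (sz K q)) * pf h (mk L e)) * R := by ring
    _ ≤ _ := mul_le_mul_of_nonneg_right h8 hR.le

theorem open_step [Finite G] (D : Finset α) (g : G) (a : α) (ha : a ∉ D) (ih : Op G (insert a D))
    (hg : ∀ d ∈ D, g • d ∈ D ∨ g • d = a) :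
    ∃ T : Finset G, T.card * v ^ Fintype.card α ≤ rh (sz (pw G D) (mk _ a)) * W α (pw G D) ∧
      Cov D g a T := by
  classical
  have hgD : ∀ d ∈ D, g • d ∈ insert a D := by
    intro d hd
    rcases hg d hd with h | h
    · exact Finset.mem_insert_of_mem h
    · rw [h]; exact Finset.mem_insert_self _ _
  have hsub : D.image (fun d => g • d) ⊆ insert a D := by
    intro d hd
    obtain ⟨e, he, rfl⟩ := Finset.mem_image.1 hd
    exact hgD e he
  have hKL : pw G (insert a D) ≤ pw G (D.image (fun d => g • d)) :=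
    fun k hk d hd => hk _ (hsub hd)
  have hcard : (D.image (fun d => g • d)).card = D.card :=
    Finset.card_image_of_injective _ (MulAction.injective g)
  obtain ⟨e, he1, he2⟩ : ∃ e ∈ insert a D, e ∉ D.image (fun d => g • d) :=
    Finset.exists_mem_notMem_of_card_lt_card (by rw [hcard, Finset.card_insert_of_notMem ha]; omega)
  have heq : insert e (D.image (fun d => g • d)) = insert a D := by
    apply Finset.eq_of_subset_of_card_le (Finset.insert_subset he1 hsub)
    rw [Finset.card_insert_of_notMem ha, Finset.card_insert_of_notMem he2, hcard]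
  have hK : ∀ k ∈ pw G (insert a D), k • e = e := fun k hk => hk e he1
  have hs1 := sz_mul (pw G D) (pw G (insert a D)) a (mem_pw_insert D a)
  have hs2 := sz_mul (pw G (D.image (fun d => g • d))) (pw G (insert a D)) e
    (by rw [← heq]; exact mem_pw_insert _ e)
  rw [card_conj, ← hs1] at hs2
  have hs3 := Nat.eq_of_mul_eq_mul_right Nat.card_pos hs2
  have hs4 := sz_conj D g a
  obtain ⟨T, hT1, hT2⟩ := step D g a ih hgD hKL _ (Finset.Subset.refl _)
  refine ⟨T, hT1.trans ?_, ?_⟩
  · rw [← W_conj D g]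
    by_cases hc : mk (pw G (D.image (fun d => g • d))) e = mk _ (g • a)
    · obtain ⟨m, h1, h2, h3, h4⟩ := fib_split hKL e hK
      rw [← hc, h4, W_rest _ (mk (pw G (D.image (fun d => g • d))) e), ← hs3, h1]
      have h5 := I2 h2
      have h6 := W_le1 hKL (mk _ e)
      rw [h3] at h6
      have h7 : 0 ≤ ∑ q ∈ (fib hKL (mk _ e)).erase (mk _ e), rh (sz _ q) :=
        Finset.sum_nonneg (fun q _ => by linarith [one_le_rh (sz _ q)])
      have h8 := rest_pos _ (mk (pw G (D.image (fun d => g • d))) e)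
      calc _ ≤ _ := mul_le_mul_of_nonneg_right h6 (by linarith)
        _ = _ := by ring
        _ ≤ _ := mul_le_mul_of_nonneg_right h5 h8.le
        _ = _ := by ring
    · have h1 := diff_bound hKL e hK _ hc (by rw [hs3, hs4])
      have h2 := one_le_rh (sz (pw G D) (mk _ a))
      have h3 : 0 ≤ W α (pw G (D.image (fun d => g • d))) :=
        le_trans (pow_nonneg v_pos.le _) (W_ge _)
      nlinarith
  · intro x hx
    obtain ⟨y, hy, k, hk, hxy⟩ := hT2 x hx (mem_top D g a hKL x hx)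
    exact ⟨y, hy, k, ((mem_pw_insert D a k).1 hk).1, ((mem_pw_insert D a k).1 hk).2, hxy⟩

theorem closed_step [Finite G] (hf : ∀ g : G, (∀ a : α, g • a = a) → g = 1) (D : Finset α)
    (ih1 : ∀ a, a ∉ D → Op G (insert a D)) (ih2 : ∀ E, D ⊂ E → Cl G E) : Cl G D := by
  classical
  intro g hg
  by_cases htriv : ∀ h ∈ pw G D, ∀ a : α, h • a = a
  · refine ⟨{g}, ?_, ?_⟩
    · simpa using W_ge (α := α) (pw G D)
    · intro x hx
      refine ⟨g, by simp, 1, one_mem _, ?_⟩
      have : g⁻¹ * x = 1 := by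
        apply hf
        apply htriv
        intro b hb
        rw [mul_smul, hx b hb, inv_smul_smul]
      rw [one_mul, inv_one, mul_one]
      exact (inv_mul_eq_one.1 this).symm
  push Not at htriv
  obtain ⟨h0, hh0, a, hha⟩ := htriv
  have ha : a ∉ D := fun h => hha (hh0 a h)
  have hgD : ∀ d ∈ D, g • d ∈ insert a D := fun d hd => Finset.mem_insert_of_mem (hg d hd)
  have him : D.image (fun d => g • d) = D := by
    apply Finset.eq_of_subset_of_card_le
    · intro d hd
      obtain ⟨e, he, rfl⟩ := Finset.mem_image.1 hd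
      exact hg e he
    · rw [Finset.card_image_of_injective _ (MulAction.injective g)]
  have hLH : pw G (D.image (fun d => g • d)) = pw G D := by rw [him]
  have hKL : pw G (insert a D) ≤ pw G (D.image (fun d => g • d)) := by
    rw [hLH]; exact fun k hk => ((mem_pw_insert D a k).1 hk).1
  have hKH : pw G (insert a D) ≤ pw G D := fun k hk => ((mem_pw_insert D a k).1 hk).1
  have hK : ∀ k ∈ pw G (insert a D), k • a = a := fun k hk => ((mem_pw_insert D a k).1 hk).2
  have hs3 : sz (pw G (D.image (fun d => g • d))) (mk _ a) = sz (pw G D) (mk _ a) := by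
    rw [him]
  have hs4 := sz_conj D g a
  rw [← W_conj D g]
  by_cases hc : mk (pw G (D.image (fun d => g • d))) a = mk _ (g • a)
  swap
  · obtain ⟨T, hT1, hT2⟩ := step D g a (ih1 a ha) hgD hKL _ (Finset.Subset.refl _)
    refine ⟨T, hT1.trans (diff_bound hKL a hK _ hc (by rw [hs3, hs4])), ?_⟩
    intro x hx
    obtain ⟨y, hy, k, hk, hxy⟩ := hT2 x hx (mem_top D g a hKL x hx)
    exact ⟨y, hy, k, hKH hk, hxy⟩
  obtain ⟨m, h1, h2, h3, -⟩ := fib_split hKL a hK
  have hm : 1 ≤ m := by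
    have : 1 < sz (pw G (D.image (fun d => g • d))) (mk _ a) := by
      unfold sz
      rw [Finset.one_lt_card]
      refine ⟨h0 • a, ?_, a, by simp, hha⟩
      simp only [Finset.mem_filter, Finset.mem_univ, true_and, mk_eq]
      exact ⟨h0, hLH ▸ hh0, rfl⟩
    omega
  obtain ⟨T, hT1, hT2⟩ := step D g a (ih1 a ha) hgD hKL
    ((fib hKL (mk _ a)).erase (mk _ a)) (by rw [← hc]; exact Finset.erase_subset _ _)
  let O : Finset α := Finset.univ.filter
    (fun b => mk (pw G (D.image (fun d => g • d))) b = mk _ a)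
  have hO : ∀ b, b ∈ O ↔ ∃ h ∈ pw G D, h • a = b := by
    intro b
    simp only [O, Finset.mem_filter, Finset.mem_univ, true_and, mk_eq, hLH]
  have hT0 : ∃ T0 : Finset G, T0.card * v ^ Fintype.card α ≤
      v ^ (m + 1) * rest _ (mk (pw G (D.image (fun d => g • d))) a) ∧
      ∀ x : G, (∀ d ∈ D, x • d = g • d) → (∀ b ∈ O, x • b = b) →
        ∃ y ∈ T0, ∃ k ∈ pw G D, x = k * y * k⁻¹ := by
    by_cases hex : ∃ x0 : G, (∀ d ∈ D, x0 • d = g • d) ∧ ∀ b ∈ O, x0 • b = b
    swap
    · refine ⟨∅, ?_, fun x hx1 hx2 => absurd ⟨x, hx1, hx2⟩ hex⟩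
      simpa using (mul_pos (pow_pos v_pos _) (rest_pos _ _)).le
    obtain ⟨x0, hx1, hx2⟩ := hex
    obtain ⟨T0, h4, h5⟩ := ih2 (D ∪ O) (by
      refine Finset.ssubset_iff_subset_ne.2 ⟨Finset.subset_union_left, fun h => ha ?_⟩
      rw [h]
      exact Finset.mem_union_right _ ((hO a).2 ⟨1, one_mem _, one_smul _ _⟩)) x0 (by
      intro d hd
      rcases Finset.mem_union.1 hd with hd | hd
      · rw [hx1 d hd]; exact Finset.mem_union_left _ (hg d hd)
      · rw [hx2 d hd]; exact Finset.mem_union_right _ hd)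
    have hle : pw G (D ∪ O) ≤ pw G D := fun k hk d hd => hk d (Finset.mem_union_left _ hd)
    have hle' : pw G (D ∪ O) ≤ pw G (D.image (fun d => g • d)) := hLH ▸ hle
    refine ⟨T0, h4.trans ((W_le1 hle' (mk _ a)).trans (le_of_eq ?_)), ?_⟩
    · congr 1
      have h6 : ∀ q ∈ fib hle' (mk _ a), sz _ q = 1 := by
        intro q hq
        obtain ⟨b, rfl⟩ := Quotient.mk''_surjective q
        have hb : b ∈ O := by
          simp only [O, Finset.mem_filter, Finset.mem_univ, true_and]
          exact (mem_fib hle' _ b).1 hq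
        exact sz_one _ b (fun k hk => hk b (Finset.mem_union_right _ hb))
      rw [← h1, ← sz_sum hle', ← Finset.prod_pow_eq_pow_sum]
      unfold pf
      apply Finset.prod_congr rfl
      intro q hq
      rw [h6 q hq, om_one, pow_one]
    · intro x hx hxO
      obtain ⟨y, hy, k, hk, hxy⟩ := h5 x (by
        intro d hd
        rcases Finset.mem_union.1 hd with hd | hd
        · rw [hx d hd, hx1 d hd]
        · rw [hxO d hd, hx2 d hd])
      exact ⟨y, hy, k, hle hk, hxy⟩
  obtain ⟨T0, h4, h5⟩ := hT0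
  refine ⟨T0 ∪ T, ?_, ?_⟩
  · have h6 : ((T0 ∪ T).card : ℝ) ≤ T0.card + T.card := by
      exact_mod_cast Finset.card_union_le _ _
    have h7 := I1 h2 hm
    have h8 := W_le1 hKL (mk _ a)
    rw [h3] at h8
    have h9 : 0 ≤ ∑ q ∈ (fib hKL (mk _ a)).erase (mk _ a), rh (sz _ q) :=
      Finset.sum_nonneg (fun q _ => by linarith [one_le_rh (sz _ q)])
    have h10 := rest_pos _ (mk (pw G (D.image (fun d => g • d))) a)
    have h11 := hT1.trans (mul_le_mul_of_nonneg_right h8 h9)
    rw [W_rest _ (mk (pw G (D.image (fun d => g • d))) a), h1]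
    calc _ ≤ ((T0.card : ℝ) + T.card) * v ^ Fintype.card α :=
          mul_le_mul_of_nonneg_right h6 (pow_nonneg v_pos.le _)
      _ = _ := add_mul _ _ _
      _ ≤ _ := add_le_add h4 h11
      _ = _ := by ring
      _ ≤ _ := mul_le_mul_of_nonneg_right h7 h10.le
  · intro x hx
    by_cases hxO : ∀ b ∈ O, x • b = b
    · obtain ⟨y, hy, k, hk, hxy⟩ := h5 x hx hxO
      exact ⟨y, Finset.mem_union_left _ hy, k, hk, hxy⟩
    push Not at hxO
    obtain ⟨b, hb, hxb⟩ := hxO
    obtain ⟨h, hh, rfl⟩ := (hO b).1 hb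
    have hx' : ∀ d ∈ D, (h⁻¹ * x * h) • d = g • d := by
      intro d hd
      rw [mul_smul, mul_smul, hh d hd, hx d hd]
      exact (pw G D).inv_mem hh _ (hg d hd)
    obtain ⟨y, hy, k, hk, hxy⟩ := hT2 (h⁻¹ * x * h) hx' (by
      rw [Finset.mem_erase]
      refine ⟨?_, by rw [hc]; exact mem_top D g a hKL _ hx'⟩
      intro he
      obtain ⟨k, hk, hka⟩ := (mk_eq _ _ _).1 he
      rw [hK k hk, mul_smul, mul_smul, eq_inv_smul_iff] at hka
      exact hxb hka.symm)
    refine ⟨y, Finset.mem_union_right _ hy, h * k, mul_mem hh (hKH hk), ?_⟩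
    have : x = h * (h⁻¹ * x * h) * h⁻¹ := by group
    rw [this, hxy]; group

theorem main [Finite G] (hf : ∀ g : G, (∀ a : α, g • a = a) → g = 1) (n : ℕ) :
    ∀ D : Finset α, Dᶜ.card = n → Cl G D ∧ Op G D := by
  induction n using Nat.strong_induction_on with
  | _ n ih =>
  intro D hD
  have hlt : ∀ E : Finset α, D ⊂ E → Eᶜ.card < n := by
    intro E hE
    rw [← hD]
    exact Finset.card_lt_card (Finset.compl_ssubset_compl.2 hE)
  have h1 : ∀ a, a ∉ D → Op G (insert a D) := fun a ha =>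
    (ih _ (hlt _ (Finset.ssubset_insert ha)) _ rfl).2
  have h2 : Cl G D := closed_step hf D h1 (fun E hE => (ih _ (hlt E hE) E rfl).1)
  refine ⟨h2, ?_⟩
  intro g a hg
  by_cases ha : a ∈ D
  · obtain ⟨T, hT1, hT2⟩ := h2 g (by
      intro d hd
      rcases hg d hd with h | h
      · exact h
      · rw [h]; exact ha)
    refine ⟨T, ?_, ?_⟩
    · rw [sz_one (pw G D) a (fun k hk => hk a ha), rh_one, one_mul]
      exact hT1
    · intro x hx
      obtain ⟨y, hy, k, hk, hxy⟩ := hT2 x hx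
      exact ⟨y, hy, k, hk, hk a ha, hxy⟩
  · exact open_step D g a ha (h1 a ha) hg

theorem bound [Finite G] (hf : ∀ g : G, (∀ a : α, g • a = a) → g = 1)
    (hn : 3 ≤ Fintype.card α) :
    Nat.card (ConjClasses G) ^ 2 ≤ 3 ^ (Fintype.card α - 1) := by
  obtain ⟨T, hT1, hT2⟩ := (main hf _ (∅ : Finset α) rfl).1 (1 : G) (by simp)
  have h1 : Nat.card (ConjClasses G) ≤ T.card := by
    apply card_le_of_cov
    intro x
    obtain ⟨y, hy, k, -, hxy⟩ := hT2 x (by simp)
    exact ⟨y, hy, k, hxy⟩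
  have h2 := hT1.trans (W_le _ (by omega))
  obtain ⟨m, hm⟩ : ∃ m, Fintype.card α = m + 1 := ⟨Fintype.card α - 1, by omega⟩
  rw [hm, om, if_neg (by omega), pow_succ, ← mul_assoc] at h2
  have h3 : (T.card : ℝ) * v ^ m ≤ 1 := by
    have := v_pos
    nlinarith
  have h4 : ((T.card : ℝ) * v ^ m) ^ 2 ≤ 1 :=
    pow_le_one₀ (mul_nonneg (Nat.cast_nonneg _) (pow_nonneg v_pos.le _)) h3
  have h5 : (v ^ m) ^ 2 * 3 ^ m = 1 := by
    rw [← pow_mul, mul_comm m 2, pow_mul, pow_two, v_sq, ← mul_pow]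
    norm_num
  have h6 : (T.card : ℝ) ^ 2 ≤ 3 ^ m := by
    have h7 : (0 : ℝ) < 3 ^ m := by positivity
    calc (T.card : ℝ) ^ 2 = (T.card : ℝ) ^ 2 * ((v ^ m) ^ 2 * 3 ^ m) := by rw [h5, mul_one]
      _ = ((T.card : ℝ) * v ^ m) ^ 2 * 3 ^ m := by ring
      _ ≤ 1 * 3 ^ m := mul_le_mul_of_nonneg_right h4 h7.le
      _ = _ := one_mul _
  rw [hm, Nat.add_sub_cancel]
  have h8 : T.card ^ 2 ≤ 3 ^ m := by exact_mod_cast h6
  exact (Nat.pow_le_pow_left h1 2).trans h8

theorem perm_bound (S : Subgroup (Equiv.Perm α)) (hn : 3 ≤ Fintype.card α) :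
    Nat.card (ConjClasses S) ^ 2 ≤ 3 ^ (Fintype.card α - 1) := by
  apply bound _ hn
  intro g hg
  ext a
  exact hg a

end Cfsg.Agent.H5.KR
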