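import Cfsg.Agent.H8.Cd1
import Cfsg.Agent.H7.Second

/-! S4591: a normal subgroup inside the kernels of all `p'`-degree characters lies in `N P'`. -/

set_option autoImplicit false

open H5 H6 H8 Cfsg
open scoped ComplexConjugate commutatorElement
namespace H5.KpY
variable {G : Type*} [Group G] [Finite G]

theorem y1 {p : ℕ} [hp : Fact p.Prime] (P : Sylow p G) {V : Subgroup G} [V.Normal]
    (hV : pResidual p V = ⊤) {x : G} (hx : x ∈ V)
    (hc : x ∈ Subgroup.centralizer ((P : Subgroup G) : Set G)) (hx1 : x ≠ 1) :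
    ∃ χ, IsIrrCharacter G χ ∧ ¬ V ≤ charKer χ ∧ ¬ p ∣ charDegree χ := by
  classical
  haveI := Fintype.ofFinite G
  letI := irrAct V
  obtain ⟨θ, h1, h2, h3⟩ : ∃ θ : IrrCharacter V, θ ≠ irrOne V ∧ (P : Subgroup G) ≤ inertia θ.1 ∧
      ¬ p ∣ charDegree θ.1 := by
    by_contra! hc'
    obtain ⟨M, -, hM, hpM⟩ := H7.exists_isPModular p
    letI := Ideal.Quotient.field M
    let a : IrrCharacter V → AlgInt := fun θ => ⟨θ.1 ⟨x, hx⟩, θ.2.isCharacter.isIntegral _⟩
    have hp0 : ((p : ℕ) : AlgInt ⧸ M) = 0 := by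
      rw [← map_natCast (Ideal.Quotient.mk M)]
      exact Ideal.Quotient.eq_zero_iff_mem.2 hpM
    have h1 := H7.sum_eq_zero_of_pgroup hp0 P.isPGroup'
      (fun θ : IrrCharacter V => if θ = irrOne V then 0 else
        (charDegree θ.1 : AlgInt ⧸ M) * Ideal.Quotient.mk M (a θ))
      (fun u θ => by
        have e : charDegree (u • θ).1 = charDegree θ.1 := charDegree_congr (cj_apply_one _ _)
        have e2 : a (u • θ) = a θ := Subtype.ext (by
          change cj θ.1 (u : G)⁻¹ ⟨x, hx⟩ = θ.1 ⟨x, hx⟩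
          rw [cj_apply]
          refine congrArg θ.1 (Subtype.ext ?_)
          have := hc (u : G)⁻¹ (inv_mem u.2)
          change (u : G)⁻¹ * x * _ = x
          rw [this, mul_inv_cancel_right])
        rw [e, e2]
        exact if_congr ⟨fun h => by rw [← inv_smul_smul u θ, h]; rfl, fun h => by rw [h]; rfl⟩ rfl rfl)
      fun θ h => by
        split_ifs with e
        · rfl
        · obtain ⟨c, hc2⟩ := hc' θ e fun u hu => mem_inertia.2 (by
            have := congrArg Subtype.val (h ⟨u⁻¹, inv_mem hu⟩)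
            change cj θ.1 (u⁻¹)⁻¹ = θ.1 at this
            rwa [inv_inv] at this)
          rw [hc2, Nat.cast_mul, hp0, zero_mul, zero_mul]
    have h2 : ∑ θ : IrrCharacter V, (charDegree θ.1 : AlgInt) * a θ = 0 := by
      apply Subtype.ext
      have := sum_irr_mul_conj_of_not_isConj (g := (⟨x, hx⟩ : V)) (h := 1)
        (fun e => hx1 (congrArg Subtype.val (isConj_one_left.1 e)))
      rw [AddSubmonoidClass.coe_finsetSum]
      refine Eq.trans (Finset.sum_congr rfl fun θ _ => ?_) this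
      rw [θ.2.isCharacter.conj_apply_one, ← θ.2.coe_charDegree, mul_comm]
      simp [a]
    have h3 := congrArg (Ideal.Quotient.mk M) h2
    rw [map_sum, map_zero, ← Finset.add_sum_erase _ _ (Finset.mem_univ (irrOne V))] at h3
    rw [← Finset.add_sum_erase _ _ (Finset.mem_univ (irrOne V)), if_pos rfl, zero_add,
      Finset.sum_congr rfl fun θ h => if_neg (Finset.ne_of_mem_erase h)] at h1
    simp only [map_mul, map_natCast] at h3
    rw [h1, charDegree_of_eq (n := 1) (by simp), show a (irrOne V) = 1 from rfl] at h3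
    simp at h3
  have hVH : V ≤ V ⊔ P := le_sup_left
  have hθ' := isIrr_sOf hVH θ.2
  obtain ⟨a, ha⟩ : ∃ a, (V.subgroupOf (V ⊔ P)).index = p ^ a := by
    obtain ⟨b, hb⟩ := P.isPGroup'.exists_card_eq
    obtain ⟨a, -, ha⟩ := (Nat.dvd_prime_pow hp.out).1 (hb ▸ (Subgroup.relIndex_sup_left (P : Subgroup G) V).dvd.trans
      (Subgroup.index_dvd_card _))
    exact ⟨a, ha⟩
  have h4 : ¬ p ∣ detOrder (sOf θ.1 (V ⊔ P)) := not_dvd_detOrder (by
    have := H3.map_pResidual_of_surjective (p := p) (Subgroup.subgroupOfEquivOfLe hVH).symm.toMonoidHom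
      (MulEquiv.surjective _)
    rw [← this, hV, Subgroup.map_top_of_surjective _ (MulEquiv.surjective _)]) _
  obtain ⟨η, ⟨h5, h6, -⟩, -⟩ := exists_canonical_ext hθ' (fun g => by
      rw [cj_sOf, (sup_le (le_inertia θ.2.isClassFunction) h2 g.2 : cj θ.1 g = θ.1)])
    (d := charDegree θ.1) θ.2.coe_charDegree.symm (by
      rw [ha]
      exact ((Nat.Prime.coprime_iff_not_dvd hp.out).2 (Nat.Prime.not_dvd_mul hp.out h4 h3)).pow_left _)
  obtain ⟨χ, h7, h8⟩ := exists_constituent_not_dvd (isCharacter_ind _ h5.isCharacter) (n := p) (by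
    rw [deg_ind h5.isCharacter, charDegree_congr (χ := η) (ψ := θ.1) (h6 1)]
    exact Nat.Prime.not_dvd_mul hp.out (fun e => P.not_dvd_index
      (e.trans (Subgroup.index_dvd_of_le le_sup_right))) h3)
  refine ⟨_, χ.2, fun hk => h1 (Subtype.ext (θ.2.charKer_eq_top_iff.1 (top_le_iff.1 fun v _ => ?_))), h8⟩
  rw [inner_ind_left _ _ χ.2.isClassFunction, Ne, classInner_eq_zero_comm] at h7
  have := apply_eq_of_mem_charKer (ker_le_of_constituent χ.2.isCharacter h5 h7
    (x := ⟨v, hVH v.2⟩) (hk v.2))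
  exact θ.2.mem_charKer.2 ((h6 ⟨⟨v, hVH v.2⟩, v.2⟩).symm.trans (this.trans (h6 1)))

theorem pY (p : ℕ) [hp : Fact p.Prime] (P : Sylow p G) (N : Subgroup G) [N.Normal]
    (hmax : ∀ L : Subgroup G, L.Normal →
      L ⊓ Subgroup.centralizer ((P : Subgroup G) : Set G) = ⊥ → L ≤ N)
    (K : Subgroup G) [K.Normal]
    (hK : ∀ χ, IsIrrCharacter G χ → ¬ p ∣ charDegree χ → K ≤ charKer χ) :
    K ≤ N ⊔ ⁅(P : Subgroup G), (P : Subgroup G)⁆ := by
  classical
  haveI := Fintype.ofFinite G
  let V : Subgroup G := (pResidual p K).map K.subtype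
  haveI : V.Normal := ConjAct.normal_of_characteristic_of_normal
  have hV : pResidual p V = ⊤ := by
    apply Subgroup.map_injective V.subtype_injective
    rw [← MonoidHom.range_eq_map, Subgroup.range_subtype]
    refine le_antisymm (Subgroup.map_subtype_le _) ?_
    rw [H3.map_subtype_pResidual V]
    refine (H3.map_subtype_pResidual K).le.trans (Subgroup.closure_mono fun g hg => ⟨?_, hg.2⟩)
    exact (H3.map_subtype_pResidual K).ge (Subgroup.subset_closure hg)
  have hVN : V ≤ N := hmax V inferInstance (eq_bot_iff.2 fun x hx => by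
    by_contra hx1
    obtain ⟨χ, h1, h2, h3⟩ := y1 P hV hx.1 hx.2 hx1
    exact h2 ((Subgroup.map_subtype_le _).trans (hK χ h1 h3)))
  let π := QuotientGroup.mk' N
  have hπ : Function.Surjective π := QuotientGroup.mk'_surjective N
  have hKp : IsPGroup p (K.map π) := by
    rintro ⟨_, k, hk, rfl⟩
    obtain ⟨n, hn⟩ := H3.exists_index_pResidual (G := K) (p := p)
    refine ⟨n, Subtype.ext ?_⟩
    have := (pResidual p K).pow_index_mem ⟨k, hk⟩
    rw [hn] at this
    show (π k) ^ p ^ n = 1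
    rw [← map_pow]
    exact (QuotientGroup.eq_one_iff _).2 (hVN ⟨_, this, rfl⟩)
  haveI : (K.map π).Normal := Subgroup.Normal.map inferInstance π hπ
  have hKH : K ≤ N ⊔ P := by
    have h1 : K.map π ≤ (P : Subgroup G).map π :=
      (H1.le_pCore hKp).trans (H1.pCore_le_sylow (P.mapSurjective hπ))
    have := Subgroup.map_le_iff_le_comap.1 h1
    rwa [Subgroup.comap_map_eq, QuotientGroup.ker_mk', sup_comm] at this
  have hcm : ⁅N ⊔ (P : Subgroup G), N ⊔ (P : Subgroup G)⁆ ≤ N ⊔ ⁅(P : Subgroup G), (P : Subgroup G)⁆ := by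
    have e : (N ⊔ (P : Subgroup G)).map π = (P : Subgroup G).map π := by
      rw [Subgroup.map_sup, (Subgroup.map_eq_bot_iff N).2 (QuotientGroup.ker_mk' N).ge, bot_sup_eq]
    have h1 : (⁅N ⊔ (P : Subgroup G), N ⊔ (P : Subgroup G)⁆ : Subgroup G).map π ≤
        (⁅(P : Subgroup G), (P : Subgroup G)⁆ : Subgroup G).map π := by
      rw [Subgroup.map_commutator, Subgroup.map_commutator, e]
    have := Subgroup.map_le_iff_le_comap.1 h1
    rwa [Subgroup.comap_map_eq, QuotientGroup.ker_mk', sup_comm _ N] at this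
  have hU : commutator ↥(N ⊔ (P : Subgroup G)) ≤
      (N ⊔ ⁅(P : Subgroup G), (P : Subgroup G)⁆).subgroupOf (N ⊔ P) := fun x hx =>
    hcm ((Subgroup.map_subtype_commutator _).le ⟨x, hx, rfl⟩)
  haveI := Subgroup.Normal.of_commutator_le _ hU
  intro g hg
  by_contra hg'
  obtain ⟨η, h1, h2, h3⟩ := exists_irr_le_charKer_not_mem
    ((N ⊔ ⁅(P : Subgroup G), (P : Subgroup G)⁆).subgroupOf (N ⊔ P)) (g := ⟨g, hKH hg⟩) hg'
  have h4 : η 1 = 1 := h1.commutator_le_charKer_iff.1 (hU.trans h2)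
  obtain ⟨χ, h7, h8⟩ := exists_constituent_not_dvd (isCharacter_ind _ h1.isCharacter) (n := p) (by
    rw [deg_ind h1.isCharacter, charDegree_of_eq (χ := η) (n := 1) (by simpa using h4), mul_one]
    exact fun e => P.not_dvd_index (e.trans (Subgroup.index_dvd_of_le le_sup_right)))
  rw [inner_ind_left _ _ χ.2.isClassFunction, Ne, classInner_eq_zero_comm] at h7
  exact h3 (ker_le_of_constituent χ.2.isCharacter h1 h7 (hK χ χ.2 h8 hg))

end H5.KpY
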