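import Cfsg.Agent.H18.BG1

/-! Fixed spaces `fixS ρ B` of subgroups in a linear representation; in a primitive faithful representation (`LPrim`) the
elements of abelian normal subgroups are fixed point free (`LPrim.fpf`), and for solvable groups every nontrivial element
fixes at most three quarters of the space (`LPrim.three_quarters`). -/

set_option autoImplicit false
open Cfsg H18 Subgroup Module
open scoped commutatorElement

namespace H5
end H5
open H5
namespace H5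
variable {G : Type*} [Group G] {A B H : Subgroup G} {x y g : G}
  {F V : Type*} [Field F] [AddCommGroup V] [Module F V] {ρ : G →* Module.End F V} {v : V}

/-- vectors fixed by a subgroup -/
def fixS (ρ : G →* Module.End F V) (B : Subgroup G) : Submodule F V where
  carrier := {v | ∀ b ∈ B, ρ b v = v}
  add_mem' ha hb b h := by rw [map_add, ha b h, hb b h]
  zero_mem' b _ := map_zero _
  smul_mem' c _ ha b h := by rw [map_smul, ha b h]

theorem mem_fixS : v ∈ fixS ρ B ↔ ∀ b ∈ B, ρ b v = v := Iff.rfl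
theorem fixS_anti (h : A ≤ B) : fixS ρ B ≤ fixS ρ A := fun _ hv b hb => hv b (h hb)
theorem rho_mul (x y : G) (v : V) : ρ (x * y) v = ρ x (ρ y v) := by rw [map_mul]; rfl
theorem rho_inv_rho (x : G) (v : V) : ρ x⁻¹ (ρ x v) = v := by rw [← rho_mul, inv_mul_cancel, map_one]; rfl
theorem rho_rho_inv (x : G) (v : V) : ρ x (ρ x⁻¹ v) = v := by rw [← rho_mul, mul_inv_cancel, map_one]; rfl

/-- the stabilizer of a vector -/
def stabV (ρ : G →* Module.End F V) (v : V) : Subgroup G where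
  carrier := {g | ρ g v = v}
  mul_mem' {a b} ha hb := by
    change ρ (a * b) v = v
    rw [rho_mul, hb, ha]
  one_mem' := by
    change ρ 1 v = v
    rw [map_one]; rfl
  inv_mem' {a} ha := by
    change ρ a⁻¹ v = v
    nth_rewrite 1 [← ha]; exact rho_inv_rho a v

theorem mem_fixS_iff : v ∈ fixS ρ B ↔ B ≤ stabV ρ v := Iff.rfl
theorem mem_fixS_zpowers : v ∈ fixS ρ (zpowers x) ↔ ρ x v = v := mem_fixS_iff.trans zpowers_le
theorem fixS_sup : fixS ρ (A ⊔ B) = fixS ρ A ⊓ fixS ρ B := Submodule.ext fun _ => mem_fixS_iff.trans sup_le_iff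

theorem map_fixS (g : G) : (fixS ρ B).map (ρ g) = fixS ρ (cj g B) := by
  refine le_antisymm ?_ fun v hv => ⟨ρ g⁻¹ v, fun b hb => ?_, rho_rho_inv g v⟩
  · rintro _ ⟨v, hv, rfl⟩ b hb
    rw [← rho_mul, show b * g = g * (g⁻¹ * b * g) by group, rho_mul, hv _ (mem_cj.1 hb)]
  · rw [← rho_mul, show b * g⁻¹ = g⁻¹ * (g * b * g⁻¹) by group, rho_mul, hv _ (conj_mem_cj hb)]

theorem finrank_fixS_cj (g : G) : finrank F (fixS ρ (cj g B)) = finrank F (fixS ρ B) := by
  rw [← map_fixS]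
  exact (Submodule.equivMapOfInjective _ (Function.LeftInverse.injective (rho_inv_rho g)) _).finrank_eq.symm

theorem two_fix_le [FiniteDimensional F V] (x y : G) :
    2 * finrank F (fixS ρ (zpowers x)) ≤ finrank F V + finrank F (fixS ρ (zpowers ⁅y, x⁆)) := by
  have e := Submodule.finrank_sup_add_finrank_inf_eq (fixS ρ (zpowers x)) (fixS ρ (cj y (zpowers x)))
  have h1 : finrank F ↥(fixS ρ (zpowers x) ⊓ fixS ρ (cj y (zpowers x))) ≤ finrank F (fixS ρ (zpowers ⁅y, x⁆)) := by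
    rw [← fixS_sup]
    exact Submodule.finrank_mono (fixS_anti (zpowers_le_of_mem (mul_mem (mem_sup_right (conj_mem_cj (mem_zpowers x)))
      (mem_sup_left (inv_mem (mem_zpowers x))))))
  have h2 := Submodule.finrank_le (fixS ρ (zpowers x) ⊔ fixS ρ (cj y (zpowers x)))
  rw [finrank_fixS_cj] at e
  omega

/-- `B` is maximal among the subgroups of `A` with a nonzero fixed vector -/
structure MaxFix (ρ : G →* Module.End F V) (A B : Subgroup G) : Prop where
  le : B ≤ A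
  ne : fixS ρ B ≠ ⊥
  max : ∀ L, L ≤ A → fixS ρ L ≠ ⊥ → B ≤ L → L = B

theorem MaxFix.cj (h : MaxFix ρ A B) (hg : g ∈ N(A)) : MaxFix ρ A (H18.cj g B) := by
  refine ⟨cj_le_of_mem_N h.le hg, fun e => h.ne ?_, fun L h1 h2 h3 => ?_⟩
  · have := map_fixS (ρ := ρ) (B := H18.cj g B) g⁻¹
    rw [e, Submodule.map_bot] at this
    simpa using this.symm
  · rw [← h.max (H18.cj g⁻¹ L) (cj_le_of_mem_N h1 (inv_mem hg)) (fun e => h2 ?_) (by simpa using cj_mono (g := g⁻¹) h3)]
    · simp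
    · have := map_fixS (ρ := ρ) (B := H18.cj g⁻¹ L) g
      rw [e, Submodule.map_bot] at this
      simpa using this.symm

theorem MaxFix.indep (hA : Abel A) (h : MaxFix ρ A B) (s : Finset (Subgroup G)) :
    (∀ L ∈ s, MaxFix ρ A L ∧ L ≠ B) → ∀ v ∈ fixS ρ B, v ∈ ⨆ L ∈ s, fixS ρ L → v = 0 := by
  classical
  induction s using Finset.induction_on with
  | empty => intro _ v _ hv; simpa using hv
  | insert L s _ ih =>
    intro hs v h1 h2
    obtain ⟨hL, hne⟩ := hs L (Finset.mem_insert_self _ _)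
    obtain ⟨b, hb, hbB⟩ := SetLike.not_le_iff_exists.1 fun e : L ≤ B => hne (hL.max B h.le h.ne e).symm
    have inv : ∀ M ≤ A, ∀ w ∈ fixS ρ M, ρ b w - w ∈ fixS ρ M := fun M hM w hw => sub_mem (fun m hm => by
      rw [← rho_mul, comm_of_cent hA (hM hm) (hL.le hb), rho_mul, hw m hm]) hw
    rw [Finset.iSup_insert] at h2
    obtain ⟨u, hu, w, hw, rfl⟩ := Submodule.mem_sup.1 h2
    have k := ih (fun M hM => hs M (Finset.mem_insert_of_mem hM)) _ (inv B h.le _ h1) (by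
      rw [map_add, hu b hb, add_sub_add_left_eq_sub]
      have : (⨆ M ∈ s, fixS ρ M) ≤ (⨆ M ∈ s, fixS ρ M).comap (ρ b - 1) := iSup₂_le fun M hM w hw =>
        (le_iSup₂_of_le (f := fun M (_ : M ∈ s) => fixS ρ M) M hM le_rfl)
          (inv M (hs M (Finset.mem_insert_of_mem hM)).1.le w hw)
      exact this hw)
    by_contra h0
    refine hbB (h.max (B ⊔ zpowers b) (sup_le h.le (zpowers_le_of_mem (hL.le hb))) (fun e => h0 ?_) le_sup_left ▸
      mem_sup_right (mem_zpowers b))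
    rw [← Submodule.mem_bot F, ← e, fixS_sup]
    exact ⟨h1, mem_fixS_zpowers.2 (sub_eq_zero.1 k)⟩

/-- `H` acts faithfully, irreducibly and primitively -/
structure LPrim (ρ : G →* Module.End F V) (H : Subgroup G) : Prop where
  faith : ∀ g ∈ H, (∀ v, ρ g v = v) → g = 1
  irr : ∀ W : Submodule F V, (∀ g ∈ H, W.map (ρ g) ≤ W) → W = ⊥ ∨ W = ⊤
  prim : ∀ (m t : ℕ) (D : Fin t → Submodule F V), 2 ≤ t → 0 < m → (∀ i, finrank F (D i) = m) → iSupIndep D → iSup D = ⊤ →
    (∀ g ∈ H, ∃ σ : Equiv.Perm (Fin t), ∀ i, (D i).map (ρ g) = D (σ i)) → False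

variable [Finite G] [FiniteDimensional F V]

theorem LPrim.fpf (h : LPrim ρ H) (hA : Abel A) (hn : A ⊴ H) (hx : x ∈ A) (h1 : x ≠ 1) : fixS ρ (zpowers x) = ⊥ := by
  classical
  by_contra h0
  obtain ⟨B, hB, ⟨b1, b2⟩, b3⟩ := exists_maximal_sub (fun L => L ≤ A ∧ fixS ρ L ≠ ⊥) ⟨zpowers_le_of_mem hx, h0⟩
  have mB : MaxFix ρ A B := ⟨b1, b2, fun L h1 h2 => b3 L ⟨h1, h2⟩⟩
  set O : Finset (Subgroup G) := (Set.toFinite {L | ∃ g ∈ H, L = cj g B}).toFinset
  have mO : ∀ L, L ∈ O ↔ ∃ g ∈ H, L = cj g B := fun L => Set.Finite.mem_toFinset _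
  have cO : ∀ g ∈ H, ∀ L ∈ O, cj g L ∈ O := fun g hg L hL => by
    obtain ⟨k, hk, rfl⟩ := (mO L).1 hL
    exact (mO _).2 ⟨g * k, mul_mem hg hk, by rw [cj_mul]⟩
  have BO : B ∈ O := (mO B).2 ⟨1, one_mem _, by simp⟩
  by_cases hc : 2 ≤ O.card
  · let e := O.equivFin.symm
    have hσ : ∀ g ∈ H, ∃ σ : Equiv.Perm (Fin O.card), ∀ i, (fixS ρ (e i)).map (ρ g) = fixS ρ (e (σ i)) := fun g hg => by
      have : Function.Injective fun i => e.symm ⟨cj g (e i), cO g hg _ (e i).2⟩ := fun i j hij => by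
        have := congrArg (fun L : O => cj g⁻¹ L.1) (e.symm.injective hij)
        exact e.injective (Subtype.ext (by simpa using this))
      exact ⟨Equiv.ofBijective _ (Finite.injective_iff_bijective.1 this), fun i => by simp [map_fixS]⟩
    refine h.prim (finrank F (fixS ρ B)) O.card (fun i => fixS ρ (e i)) hc
      (Nat.pos_of_ne_zero fun e => b2 (Submodule.finrank_eq_zero.1 e)) (fun i => ?_) (fun i => ?_) ?_ hσ
    · obtain ⟨g, -, hg⟩ := (mO _).1 (e i).2
      rw [hg, finrank_fixS_cj]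
    · have mx : ∀ L ∈ O, MaxFix ρ A L := fun L hL => by
        obtain ⟨g, hg, rfl⟩ := (mO _).1 hL
        exact mB.cj (hn.norm hg)
      refine Submodule.disjoint_def.2 fun v h1 h2 => (mx _ (e i).2).indep hA (O.erase (e i))
        (fun L hL => ⟨mx L (Finset.mem_of_mem_erase hL), Finset.ne_of_mem_erase hL⟩) v h1 ?_
      refine (iSup₂_le fun j hj => ?_ : _ ≤ ⨆ L ∈ O.erase (e i), fixS ρ L) h2
      exact le_iSup₂_of_le (f := fun M (_ : M ∈ O.erase (e i)) => fixS ρ M) (e j)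
        (Finset.mem_erase.2 ⟨fun k => hj (e.injective (Subtype.ext k)), (e j).2⟩) le_rfl
    · refine (h.irr _ fun g hg => ?_).resolve_left fun k => b2 ?_
      · obtain ⟨σ, hσ⟩ := hσ g hg
        rw [Submodule.map_iSup]
        exact iSup_le fun i => (hσ i).le.trans (le_iSup (fun i => fixS ρ (e i)) (σ i))
      · rw [eq_bot_iff, ← k]
        simpa using le_iSup (fun i => fixS ρ (e i)) (e.symm ⟨B, BO⟩)
  · have := (h.irr (fixS ρ B) fun g hg => by
      rw [map_fixS, Finset.card_le_one.1 (by omega) _ (cO g hg B BO) B BO]).resolve_left b2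
    exact h1 (h.faith x (hn.le hx) fun v => (this.ge Submodule.mem_top) x (hB (mem_zpowers x)))

theorem LPrim.three_quarters (h : LPrim ρ H) (hs : Solv H) (hg : g ∈ H) (h1 : g ≠ 1) :
    4 * finrank F (fixS ρ (zpowers g)) ≤ 3 * finrank F V := by
  by_cases hc : g ∈ C(H)
  · rw [h.fpf abel_Z nml_Z ⟨hg, hc⟩ h1]; simp
  obtain ⟨E, -, ⟨e1, e2⟩, e3⟩ := exists_minimal_sub (fun E => E ⊴ H ∧ g ∉ C(E)) ⟨Nml.rfl, hc⟩
  have e0 : E ≠ ⊥ := by rintro rfl; simp at e2
  have gC : g ∈ C(⁅E, E⁆) := by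
    by_contra k
    exact ((hs.of_le e1.le).der_lt e0).ne (e3 _ ⟨e1.der, k⟩ der_le)
  have nM := e1.der.cent
  have nD := e1.inf nM
  set D := E ⊓ (H ⊓ C(⁅E, E⁆))
  obtain ⟨e, he, hne⟩ : ∃ e ∈ E, ⁅e, g⁆ ≠ 1 := by
    by_contra k
    push Not at k
    exact e2 (mem_C.2 fun e he => commutatorElement_eq_one_iff_mul_comm.1 (k e he))
  have cD : ⁅e, g⁆ ∈ D := e1.comm_le_inf nM (commutator_mem_commutator he ⟨hg, gC⟩)
  have k1 := two_fix_le (ρ := ρ) g e
  by_cases hd : ⁅e, g⁆ ∈ C(D)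
  · rw [h.fpf abel_Z nD.Z ⟨cD, hd⟩ hne, finrank_bot] at k1; omega
  obtain ⟨d, hd1, hd2⟩ : ∃ d ∈ D, ⁅d, ⁅e, g⁆⁆ ≠ 1 := by
    by_contra k
    push Not at k
    exact hd (mem_C.2 fun e he => commutatorElement_eq_one_iff_mul_comm.1 (k e he))
  have k2 := two_fix_le (ρ := ρ) ⁅e, g⁆ d
  have m := commutator_mem_commutator hd1 cD
  rw [h.fpf abel_Z nD.Z ⟨der_le m, cent_symm (inf_le_right.trans inf_le_right) (der_mono inf_le_left m)⟩ hd2,
    finrank_bot] at k2
  omega

end H5
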