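import Cfsg.Agent.H2.Supersolvable
import Cfsg.Agent.H1.Solv2
import Cfsg.Agent.H16.FCSolv
import Cfsg.Agent.H5.PF9c

/-! Groups of the same order type: `exists_ot`, transfer of normal Hall subgroups (`ot_nml`, `ot_tower`), Sylow towers of
supersolvable groups (`ssolv_tower`), and Frobenius groups (`ot_frob`, `ot_frob_solv`). -/

set_option autoImplicit false
open Cfsg H18 Subgroup
open scoped commutatorElement

namespace H5
end H5
open H5
namespace H5
universe u
variable {G H : Type*} [Group G] [Group H] [Finite G] [Finite H] {π ρ : Set ℕ} {e : G ≃ H} {p : ℕ}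

theorem exists_ot (h : ∀ m : ℕ, Nat.card {g : G // orderOf g = m} = Nat.card {h : H // orderOf h = m}) :
    ∃ e : G ≃ H, ∀ g, orderOf (e g) = orderOf g :=
  ⟨_, Equiv.ofFiberEquiv_map fun m => (Finite.card_eq.1 (h m)).some⟩

omit [Finite G] [Finite H] in
theorem ot_symm (he : ∀ g, orderOf (e g) = orderOf g) : ∀ h, orderOf (e.symm h) = orderOf h := fun h => by
  rw [← he, Equiv.apply_symm_apply]

theorem hall_card_eq (e : G ≃ H) {K : Subgroup G} {L : Subgroup H} (hK : Hall π K ⊤) (hL : Hall π L ⊤) :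
    Nat.card K = Nat.card L :=
  Nat.dvd_antisymm (hL.dvd_of_piNat hK.pi (by rw [card_top, ← Nat.card_congr e]; exact card_subgroup_dvd_card K))
    (hK.dvd_of_piNat hL.pi (by rw [card_top, Nat.card_congr e]; exact card_subgroup_dvd_card L))

theorem ot_mem (he : ∀ g, orderOf (e g) = orderOf g) (hK : Hall π O[π]((⊤ : Subgroup G)) ⊤) {L : Subgroup H}
    (hL : Hall π L ⊤) {x : H} (hx : PiElt π x) : x ∈ L := by
  have : (L : Set H) = e '' (O[π]((⊤ : Subgroup G)) : Subgroup G) := by
    refine Set.eq_of_subset_of_ncard_le (fun y hy => ⟨e.symm y, hK.mem_of_nml pcore_nml.norm (mem_top _) ?_, by simp⟩) ?_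
    · simpa [PiElt, ot_symm he] using hL.pi.elt hy
    · rw [Set.ncard_image_of_injective _ e.injective]
      exact (hall_card_eq e hK hL).le
  rw [← SetLike.mem_coe, this]
  exact ⟨e.symm x, hK.mem_of_nml pcore_nml.norm (mem_top _) (by simpa [PiElt, ot_symm he] using hx), by simp⟩

theorem ot_nml (he : ∀ g, orderOf (e g) = orderOf g) (hK : Hall π O[π]((⊤ : Subgroup G)) ⊤) {L : Subgroup H}
    (hL : Hall π L ⊤) : O[π]((⊤ : Subgroup H)) = L :=
  hL.eq_pcore (norm_iff.2 fun a _ _ hb => ot_mem he hK hL ((hL.pi.elt hb).conj a))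

/-- normal solvable Hall subgroup -/
structure SH (π : Set ℕ) (H : Type*) [Group H] : Prop where
  hall : Hall π O[π]((⊤ : Subgroup H)) ⊤
  solv : Solv O[π]((⊤ : Subgroup H))

theorem SH.congr (h : SH π H) (e : ∀ p, p.Prime → p ∣ Nat.card H → (p ∈ π ↔ p ∈ ρ)) : SH ρ H := by
  have e' : ∀ p, p.Prime → p ∣ Nat.card (⊤ : Subgroup H) → (p ∈ π ↔ p ∈ ρ) := by rwa [card_top]
  exact ⟨pcore_congr' e' ▸ h.hall.congr e', pcore_congr' e' ▸ h.solv⟩

theorem SH.step (he : ∀ g, orderOf (e g) = orderOf g) (h : SH π H) (hp : p.Prime)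
    (hK : Hall (π ∪ {p}) O[π ∪ {p}]((⊤ : Subgroup G)) ⊤) : SH (π ∪ {p}) H := by
  obtain ⟨P, hP⟩ := exists_sylow hp (⊤ : Subgroup H)
  have n : P ≤ N(O[π]((⊤ : Subgroup H))) := le_top.trans pcore_nml.norm
  have hL : Hall (π ∪ {p}) (P ⊔ O[π]((⊤ : Subgroup H))) ⊤ := ⟨le_top,
    PiGrp.sup_norm (hP.pi.sub Set.subset_union_right) (pcore_pi.sub Set.subset_union_left) n, fun q hq hd => by
      rintro (h1 | h1)
      exacts [h.hall.idx_of_le le_sup_right q hq hd h1, hP.idx_of_le le_sup_left q hq hd h1]⟩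
  have := ot_nml he hK hL
  exact ⟨this ▸ hL, this ▸ hP.pi.solv.sup_norm h.solv n⟩

theorem ot_tower (he : ∀ g, orderOf (e g) = orderOf g) (h : SH π H) {m : ℕ}
    (hK : ∀ n, m ≤ n → Hall (π ∪ ρ ∩ Set.Ici n) O[π ∪ ρ ∩ Set.Ici n]((⊤ : Subgroup G)) ⊤) : SH (π ∪ ρ ∩ Set.Ici m) H := by
  have h0 : ∀ n, Nat.card H < n → SH (π ∪ ρ ∩ Set.Ici n) H := fun n hn => h.congr fun p _ hd => by
    have := Nat.le_of_dvd Nat.card_pos hd
    simp only [Set.mem_union, Set.mem_inter_iff, Set.mem_Ici]
    exact ⟨Or.inl, fun h => h.resolve_right fun h => by omega⟩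
  by_cases hm : m ≤ Nat.card H + 1
  swap
  · exact h0 m (by omega)
  refine Nat.decreasingInduction' (P := fun n => SH (π ∪ ρ ∩ Set.Ici n) H) (fun k _ hk ih => ?_) hm (h0 _ (by omega))
  by_cases hc : k.Prime ∧ k ∈ ρ
  · have : π ∪ ρ ∩ Set.Ici k = π ∪ ρ ∩ Set.Ici (k + 1) ∪ {k} := by
      ext q
      simp only [Set.mem_union, Set.mem_inter_iff, Set.mem_Ici, Set.mem_singleton_iff]
      constructor
      · rintro (h | ⟨h1, h2⟩)
        · exact Or.inl (Or.inl h)
        · rcases h2.eq_or_lt with rfl | h2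
          exacts [Or.inr rfl, Or.inl (Or.inr ⟨h1, h2⟩)]
      · rintro ((h | ⟨h1, h2⟩) | rfl)
        exacts [Or.inl h, Or.inr ⟨h1, by omega⟩, Or.inr ⟨hc.2, le_rfl⟩]
    have hk' := hK k hk
    rw [this] at hk' ⊢
    exact ih.step he hc.1 hk'
  · refine ih.congr fun q hq _ => ?_
    simp only [Set.mem_union, Set.mem_inter_iff, Set.mem_Ici]
    refine or_congr_right (and_congr_right fun h1 => ⟨fun h => by omega, fun h2 => ?_⟩)
    rcases h2.eq_or_lt with rfl | h2
    exacts [absurd ⟨hq, h1⟩ hc, h2]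

theorem sh_empty : SH ∅ H := by
  have : PiGrp (∅ : Set ℕ)ᶜ (⊤ : Subgroup H) := fun _ _ _ => by simp
  exact ⟨pcore_eq_bot_of_compl this ▸ hall_bot this, pcore_eq_bot_of_compl this ▸ abel_bot.solv⟩

theorem ssolv_tower (n m : ℕ) : ∀ {G : Type u} [Group G] [Finite G] {L : Subgroup G}, Nat.card L = m → IsSupersolvable L →
    Hall (Set.Ici n) O[Set.Ici n](L) L := by
  induction m using Nat.strong_induction_on with
  | _ m ih =>
  intro G _ _ L hm hL
  by_cases h0 : PiGrp (Set.Ici n)ᶜ L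
  · exact pcore_eq_bot_of_compl h0 ▸ hall_bot h0
  obtain ⟨q, hq, hd, hn⟩ := exists_prime_not_mem h0
  obtain ⟨p, hp, hmax⟩ := (Nat.card L).primeFactors.exists_max_image id
    ⟨q, Nat.mem_primeFactors.2 ⟨hq, hd, card_ne_zero'⟩⟩
  obtain ⟨X, x1, x2⟩ := H2.ssolv_exists_normal_card_max_prime L hL p (Nat.prime_of_mem_primeFactors hp)
    (Nat.dvd_of_mem_primeFactors hp) fun r hr hd => hmax r (Nat.mem_primeFactors.2 ⟨hr, hd, card_ne_zero'⟩)
  have nX : X.map L.subtype ⊴ L := nml_map_subtype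
  have cX : Nat.card (X.map L.subtype) = p := card_map_subtype.trans x2
  have pX : PiGrp (Set.Ici n) (X.map L.subtype) := by
    rw [PiGrp, cX, piNat_prime (Nat.prime_of_mem_primeFactors hp)]
    exact (not_not.1 hn).trans (hmax q (Nat.mem_primeFactors.2 ⟨hq, hd, card_ne_zero'⟩))
  have := ih _ (hm ▸ card_quo_lt nX (ne_bot_of_prime (cX ▸ Nat.prime_of_mem_primeFactors hp))) rfl
    (H2.ssolv_of_surjective (H2.ssolv_of_le hL inf_le_left) _ mimHom_surjective)
  exact (this.qpre nX pX).pcore_hall (nml_qpre nX pcore_nml).norm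

theorem ssolv_of_zgroup [IsZGroup G] : IsSupersolvable G :=
  have := IsZGroup.isCyclic_commutator G
  H2.ssolv_of_cyclic_normal (commutator G) (H2.ssolv_of_nilpotent (G := Abelianization G))

theorem ot_ssolv (he : ∀ g, orderOf (e g) = orderOf g) (hG : IsSupersolvable G) : Group.IsSolvable H := by
  have := ot_tower (ρ := Set.univ) (m := 0) he sh_empty fun n _ => by
    simpa using ssolv_tower n _ rfl (H2.ssolv_top_iff.2 hG)
  have h := this.solv
  rwa [pcore_eq_self fun _ _ _ => by simp, solv_top_iff] at h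

theorem ot_kernel (he : ∀ g, orderOf (e g) = orderOf g) {K C : Subgroup G} (h : Frob ⊤ K C) : SH (primes (Nat.card K)) H := by
  have hK : Hall (primes (Nat.card K)) K ⊤ := h.sd.hall_left piNat_primes (piNat_of_coprime' h.coprime)
  have := ot_tower (ρ := primes (Nat.card K)) (m := 0) he sh_empty fun n _ => by
    have h1 := ((H23.Frob_nil h).pcore_hall (π := ∅ ∪ primes (Nat.card K) ∩ Set.Ici n)).trans hK fun p _ hp => by
      simpa using (hp.resolve_left (by simp)).1
    exact h1.pcore_hall h.nml.pcore.norm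
  simpa using this

theorem ot_frob (he : ∀ g, orderOf (e g) = orderOf g) {K C : Subgroup G} (h : Frob ⊤ K C) :
    ∃ L D : Subgroup H, Frob ⊤ L D := by
  have hK : Hall (primes (Nat.card K)) K ⊤ := h.sd.hall_left piNat_primes (piNat_of_coprime' h.coprime)
  have hL := (ot_kernel he h).hall
  have ec := hall_card_eq e hK hL
  refine ⟨O[primes (Nat.card K)](⊤), H23.exists_frob_of_cent pcore_nml (fun k => h.ker_ne ?_) (fun k => h.compl_ne ?_)
    fun k hk k1 x hx => ?_⟩
  · rw [k, card_bot] at ec; exact card_eq_one.1 ec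
  · rw [k, card_top, ← Nat.card_congr e] at ec
    rw [← h.sd.inf, eq_of_card_eq le_top (ec.trans card_top.symm), top_inf_eq]
  · set y := piPart (primes (Nat.card K))ᶜ x
    have c : k * y = y * k := piPart_comm (mem_C1.1 hx.2).symm
    have pk := hL.pi.elt hk
    refine mem_of_parts (π := primes (Nat.card K)) (hL.mem_of_nml pcore_nml.norm (mem_top _) piElt_piPart) ?_
    by_contra hy
    have o : orderOf (e.symm (k * y)) = orderOf k * orderOf y := by
      rw [ot_symm he, Commute.orderOf_mul_eq_mul_orderOf_of_coprime c (pk.coprime piElt_piPart)]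
    set z := e.symm (k * y)
    have z1 : piPart (primes (Nat.card K)) z ≠ 1 := fun k2 => by
      rw [piPart_eq_one_iff, PiElt, o] at k2
      exact k1 (pk.eq_one' (k2.of_dvd (Dvd.intro _ rfl)))
    have z2 : z ∈ K := frob_cent1_le h (hK.mem_of_nml h.nml.norm (mem_top _) piElt_piPart) z1
      ⟨mem_top _, C1_le_piPart C1_self⟩
    have := hK.pi.elt z2
    rw [PiElt, o] at this
    have y1 : y = 1 := PiElt.eq_one' (this.of_dvd (Dvd.intro_left _ rfl)) piElt_piPart
    exact hy (show y ∈ _ by rw [y1]; exact one_mem _)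

theorem ot_frob_solv (he : ∀ g, orderOf (e g) = orderOf g) {K C : Subgroup G} (h : Frob ⊤ K C) (hs : Group.IsSolvable G) :
    Group.IsSolvable H := by
  obtain ⟨X, x1, x2, x3⟩ := (H16.fc_of_compl (H23.isFrobeniusComplement_of_frob h)).solvable_cases inferInstance
  have i : X.index ∣ 24 := by
    rcases x3 with rfl | ⟨f, f1, rfl⟩ | ⟨f, f1, rfl⟩ | ⟨f, f1, rfl⟩
    · simp
    all_goals
      rw [index_ker, MonoidHom.range_eq_top.2 f1, card_top, Nat.card_eq_fintype_card]
      decide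
  have nX : X.map C.subtype ⊴ C := nml_map_subtype
  have sX : IsSupersolvable (X.map C.subtype) := H2.ssolv_map _ ssolv_of_zgroup
  have := ot_tower (ρ := Set.univ) (m := 4) he (ot_kernel he h) fun n hn => by
    have h1 := (ssolv_tower n _ rfl sX).of_idx nX.le (fun q hq hd hq' => by
      rw [H1.relIndex_map_subtype] at hd
      have : q ∣ 2 ^ 3 * 3 := hd.trans i
      rcases (Nat.Prime.dvd_mul hq).1 this with h | h
      · have := Nat.le_of_dvd two_pos (hq.dvd_of_dvd_pow h); have : n ≤ q := hq'; omega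
      · have := Nat.le_of_dvd three_pos h; have : n ≤ q := hq'; omega)
    have n1 := nX.pcore (π := Set.Ici n)
    set Y := O[Set.Ici n](X.map C.subtype)
    have hY : Hall (primes (Nat.card K) ∪ Set.univ ∩ Set.Ici n) (Y ⊔ K) ⊤ := ⟨le_top,
      PiGrp.sup_norm (h1.pi.sub fun _ h => Or.inr ⟨trivial, h⟩) (piNat_primes.sub Set.subset_union_left)
        (n1.le.trans h.sd.norm), fun q hq hd => by
      rintro (h2 | h2)
      · exact (h.sd.hall_left piNat_primes (piNat_of_coprime' h.coprime)).idx_of_le le_sup_right q hq hd h2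
      · classical
        have := Fintype.ofFinite G
        rw [sup_comm, sd_relIndex_sup' h.sd n1.le] at hd
        exact h1.idx q hq hd h2.2⟩
    refine hY.pcore_hall ?_
    rw [← h.sd.sup]
    exact sup_le (le_norm le_sup_right) (norm_sup n1.norm h.sd.norm)
  rw [← solv_top_iff]
  refine solv_of_quo pcore_nml.norm (H1.solv_of_two_primes Nat.prime_two Nat.prime_three ?_) this.solv
  refine (this.hall.quo_compl pcore_nml.norm).sub' fun q hq _ h1 => ?_
  have h2 : ¬ 4 ≤ q := fun h => h1 (Or.inr ⟨trivial, h⟩)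
  have := hq.two_le
  have : q = 2 ∨ q = 3 := by omega
  simpa using this

end H5
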