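import Cfsg.Agent.H26.Qw0
import Cfsg.Agent.H2.BSWCor
import Cfsg.Agent.H10.PSL2Max

/-! Piece `P6` for S1829: the centralizer of `V₁` is an extension of `V₁` by `L₂(7)` or `A₆`. -/

set_option autoImplicit false

namespace H5.QwP6
open Subgroup DihedralGroup H326.Qw H18
universe u

/-- a group with an involution centralizer `D₈` inside every subgroup of index two -/
theorem eight {Q : Type*} [Group Q] [Finite Q] (f : D →* Q) (hf : Function.Injective f)
    (hc : f.range = C1(f (r 2))) (h2 : ∀ M : Subgroup Q, M.index = 2 → f (sr 0) ∈ M ∧ f (sr 1) ∈ M) :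
    Nat.card Q = 168 ∨ Nonempty (Q ≃* alternatingGroup (Fin 6)) := by
  have ht : orderOf (f (r 2)) = 2 := by
    rw [orderOf_injective f hf]
    exact orderOf_eq_prime (by decide) (by decide)
  obtain ⟨x, y, hx, h⟩ := H2.exists_dihC_eight ht
    ((MulEquiv.subgroupCongr hc.symm).trans (MonoidHom.ofInjective hf).symm)
  have hS := h.hall fun e => by
    have := orderOf_dvd_of_pow_eq_one (x := x) (n := 2) (by rw [sq, e]); rw [hx] at this; omega
  rcases H2.psl_of_eight h hx (fun M hM => by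
    obtain ⟨a, b⟩ := h2 M hM
    have h1 : f (r 1) ∈ M := by rw [show (r 1 : D) = sr 0 * sr 1 by decide, map_mul]; exact mul_mem a b
    have h3 : ∀ i, f (r i) ∈ M := fun i => by
      rw [← ZMod.natCast_zmod_val i, ← r_one_pow, map_pow]; exact pow_mem h1 _
    have h4 : C1(f (r 2)) ≤ M := by
      rw [← hc]
      rintro _ ⟨i | i, rfl⟩
      · exact h3 i
      · rw [← zero_add i, ← sr_mul_r, map_mul]; exact mul_mem a (h3 i)
    have h5 := hS.idx
    rw [relIndex_top_right] at h5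
    exact (piNat_compl_iff Nat.prime_two).1 h5 (hM ▸ index_dvd_of_le h4)) with e | ⟨F, _, _, hF, ⟨e⟩⟩
  · exact .inr e
  · left; rw [Nat.card_congr e.toEquiv]; exact H10.card_PSL2_of 168 hF rfl

theorem nine (σ : Equiv.Perm (Fin 6)) (h : σ ^ 9 = 1) : σ ^ 3 = 1 := by
  ext x
  have hp : Function.IsPeriodicPt σ 9 x := by
    rw [Function.IsPeriodicPt, Function.IsFixedPt, ← Equiv.Perm.coe_pow, h]; rfl
  have h1 := hp.minimalPeriod_dvd
  have h2 : Function.minimalPeriod σ x ≤ 6 := by simpa using Function.minimalPeriod_le_card (f := σ) (x := x)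
  have h3 : Function.minimalPeriod σ x ∣ 3 := by
    generalize Function.minimalPeriod σ x = d at h1 h2
    interval_cases d <;> simp_all
  have := Function.isPeriodicPt_iff_minimalPeriod_dvd.2 h3
  rw [Function.IsPeriodicPt, Function.IsFixedPt, ← Equiv.Perm.coe_pow] at this
  rw [this]; rfl

def ι : D →* TT where
  toFun d := ⟨1, d, false⟩
  map_one' := rfl
  map_mul' _ _ := rfl

theorem mem_CV {G : Type*} [Group G] {ψ : TT →* G} {g : G} :
    g ∈ CV ψ ↔ ψ z1 * g = g * ψ z1 ∧ ψ v1 * g = g * ψ v1 := by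
  simp [CV, mem_centralizer_iff]

theorem d1 : ∀ w ∈ V1, w = 1 ∨ w = z1 ∨ w = v1 ∨ w = v1 * z1 := by decide +kernel
theorem d2 : ∀ w ∈ V1, z1 * w = w * z1 ∧ v1 * w = w * v1 ∧ w * w = 1 := by decide +kernel
theorem d3 : ∀ d, ι d ∈ V1 → d = 1 := by decide +kernel
theorem d4 : ∀ t ∈ P, (ι t.b)⁻¹ * t ∈ V1 := by decide +kernel

theorem p6 : P6.{u} := by
  intro G _ _ ψ x c fu p y
  have cv : ∀ t : TT, z1 * t = t * z1 → v1 * t = t * v1 → ψ t ∈ CV ψ := fun t a b =>
    mem_CV.2 ⟨by rw [← map_mul, a, map_mul], by rw [← map_mul, b, map_mul]⟩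
  have cι : ∀ d, ψ (ι d) ∈ CV ψ := fun d => cv _ (by revert d; decide) (by revert d; decide)
  have cW : ∀ g ∈ CV ψ, ∀ w ∈ V1, ψ w * g = g * ψ w := fun g hg w hw => by
    obtain ⟨a, b⟩ := mem_CV.1 hg
    rcases d1 w hw with rfl | rfl | rfl | rfl
    · simp
    · exact a
    · exact b
    · rw [map_mul, mul_assoc, a, ← mul_assoc, b, mul_assoc]
  let W : Subgroup (CV ψ) := (V1.map ψ).subgroupOf (CV ψ)
  have WC : V1.map ψ ≤ CV ψ := by
    rintro _ ⟨w, hw, rfl⟩
    exact cv w (d2 w hw).1 (d2 w hw).2.1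
  haveI : W.Normal := ⟨by
    rintro ⟨n, hn⟩ ⟨w, hw, e⟩ ⟨g, hg⟩
    refine ⟨w, hw, ?_⟩
    change ψ w = n at e
    change ψ w = g * n * g⁻¹
    rw [← e, ← cW g hg w hw, mul_inv_cancel_right]⟩
  have cardW : Nat.card W = 4 := by
    rw [card_subgroupOf WC, ← Nat.card_congr (V1.equivMapOfInjective ψ c.inj).toEquiv, Nat.card_eq_fintype_card]
    rfl
  let π := QuotientGroup.mk' W
  let f : D →* CV ψ ⧸ W := π.comp ((ψ.comp ι).codRestrict (CV ψ) cι)
  have f1 : ∀ d, f d = π ⟨ψ (ι d), cι d⟩ := fun _ => rfl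
  have hf : Function.Injective f := (injective_iff_map_eq_one _).2 fun d hd => by
    obtain ⟨w, hw, e⟩ := (QuotientGroup.eq_one_iff _).1 hd
    have : w = ι d := c.inj e
    exact d3 d (this ▸ hw)
  have cj1 : ∀ {a b : TT} (g : G), g * ψ a * g⁻¹ = ψ b → Cj ψ a b := fun g e => isConj_iff.2 ⟨g, e⟩
  have xz2 : x * ψ z2 * x⁻¹ = ψ z2 := by rw [(c.xD z2 (by decide)).eq, mul_inv_cancel_right]
  have e1 : Cj ψ z (v1 * z2) := cj1 x (by
    rw [show z = z1 * z2 by decide, map_mul, map_mul, ← c.xz]; conv_rhs => rw [← xz2]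
    group)
  have e2 : Cj ψ (v1 * z2) (v1 * z1 * z2) := cj1 x (by
    rw [map_mul, map_mul ψ (v1 * z1), ← c.xv]; conv_rhs => rw [← xz2]
    group)
  have e3 : Cj ψ z1 z2 := cj1 (ψ s) (by rw [← map_inv, ← map_mul, ← map_mul]; congr 1)
  have hc : f.range = C1(f (r 2)) := by
    apply le_antisymm
    · rintro _ ⟨d, rfl⟩
      rw [mem_C1, ← map_mul, ← map_mul]
      congr 1
      revert d; decide
    · intro q hq
      obtain ⟨⟨g, hg⟩, rfl⟩ := QuotientGroup.mk'_surjective W q
      rw [mem_C1, ← mul_inv_eq_iff_eq_mul, ← mul_inv_eq_one, f1, ← map_inv, ← map_inv, ← map_mul, ← map_mul,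
        ← map_mul] at hq
      obtain ⟨w, hw, e⟩ := (QuotientGroup.eq_one_iff _).1 hq
      change ψ w = g * ψ z2 * g⁻¹ * (ψ z2)⁻¹ at e
      have e4 : Cj ψ z2 (w * z2) := cj1 g (by rw [map_mul, e]; group)
      have e5 : w = 1 := by
        rcases d1 w hw with rfl | rfl | rfl | rfl
        · rfl
        · exact (fu.ab (e3.trans e4)).elim
        · exact (fu.ab ((e3.trans e4).trans e1.symm)).elim
        · exact (fu.ab (((e3.trans e4).trans e2.symm).trans e1.symm)).elim
      rw [e5, map_one, eq_comm, mul_inv_eq_one, mul_inv_eq_iff_eq_mul] at e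
      obtain ⟨t, ht, rfl⟩ := y g hg e
      refine ⟨t.b, ?_⟩
      rw [f1]
      refine QuotientGroup.eq.2 ⟨(ι t.b)⁻¹ * t, d4 t ht, ?_⟩
      rw [map_mul, map_inv]; rfl
  have hx2 : ψ s * x * (ψ s)⁻¹ ∈ CV ψ := by
    have k : ∀ a b : TT, b ∈ Pr 0 4 → a = s * b * s⁻¹ → ψ a * (ψ s * x * (ψ s)⁻¹) = ψ s * x * (ψ s)⁻¹ * ψ a := by
      rintro _ b hb rfl
      rw [map_mul, map_mul, map_inv]
      calc _ = ψ s * (ψ b * x) * (ψ s)⁻¹ := by group
        _ = _ := by rw [← (c.xD b hb).eq]; group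
    exact mem_CV.2 ⟨k _ z2 (by decide) (by decide), k _ v2 (by decide) (by decide)⟩
  have hcard : Nat.card (CV ψ) = Nat.card (CV ψ ⧸ W) * 4 := by rw [← cardW]; exact card_eq_card_quotient_mul_card_subgroup W
  rcases eight f hf hc (fun M hM => by
    haveI := normal_of_index_eq_two hM
    have h1 : f (r 2) ∈ M := by
      rw [show (r 2 : D) = r 1 * r 1 by decide, map_mul]; exact mul_self_mem_of_index_two hM _
    obtain ⟨g, hg, e, -⟩ := p.g
    constructor
    · have := Normal.conj_mem inferInstance _ h1 (π ⟨_, hx2⟩)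
      rw [f1, ← map_inv π, ← map_mul, ← map_mul] at this
      convert this using 1
      rw [f1]; congr 1; apply Subtype.ext
      change ψ v2 = ψ s * x * (ψ s)⁻¹ * ψ z2 * (ψ s * x * (ψ s)⁻¹)⁻¹
      rw [show v2 = s * v1 * s⁻¹ by decide, show z2 = s * z1 * s⁻¹ by decide, map_mul, map_mul, map_mul, map_mul,
        map_inv, ← c.xz]
      group
    · have := Normal.conj_mem inferInstance _ h1 (π ⟨g, hg⟩)⁻¹
      rw [f1, inv_inv, ← map_inv π, ← map_mul, ← map_mul] at this
      convert this using 1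
      rw [f1]; congr 1; apply Subtype.ext
      change ψ u2 = g⁻¹ * ψ z2 * g
      rw [← e]; group) with h | ⟨⟨e⟩⟩
  · left; rw [hcard, h]
  have c360 : Nat.card (CV ψ ⧸ W) = 360 := by rw [Nat.card_congr e.toEquiv, nat_card_alternatingGroup]; simp; rfl
  refine .inr ⟨by rw [hcard, c360], fun g hg h9 => ?_, fun H hH h3 => ?_⟩
  · have h1 : (e (π ⟨g, hg⟩)) ^ 3 = 1 := Subtype.ext (nine _ (by
      rw [← coe_pow, ← map_pow, ← map_pow, show (⟨g, hg⟩ : CV ψ) ^ 9 = 1 from Subtype.ext h9, map_one, map_one]; rfl))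
    rw [← map_pow, EmbeddingLike.map_eq_one_iff, ← map_pow] at h1
    obtain ⟨w, hw, e⟩ := (QuotientGroup.eq_one_iff _).1 h1
    change ψ w = g ^ 3 at e
    have h2 : g ^ 3 * g ^ 3 = 1 := by
      rw [← e, ← map_mul, (d2 w hw).2.2, map_one]
    calc g ^ 3 = g ^ 3 * g ^ 3 * g ^ 3 := by rw [h2, one_mul]
      _ = g ^ 9 := by group
      _ = 1 := h9
  · haveI := alternatingGroup.isSimpleGroup (α := Fin 6) (by simp)
    haveI : IsSimpleGroup (CV ψ ⧸ W) := e.isSimpleGroup
    let K := (H.subgroupOf (CV ψ)).normalCore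
    have i3 : (H.subgroupOf (CV ψ)).index = 3 := h3
    have k1 : K.index ∣ 6 := by
      have : (H.subgroupOf (CV ψ)).normalCore.index ∣ (H.subgroupOf (CV ψ)).index.factorial := by
        rw [normalCore_eq_ker, index_ker, index_eq_card, ← Nat.card_perm]
        exact card_subgroup_dvd_card (MulAction.toPermHom _ (_ ⧸ H.subgroupOf (CV ψ))).range
      rwa [i3] at this
    have k2 : 3 ∣ K.index := i3 ▸ index_dvd_of_le (normalCore_le _)
    rcases (Normal.map (H := K) inferInstance π (QuotientGroup.mk'_surjective W)).eq_bot_or_eq_top with h | h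
    · rw [Subgroup.map_eq_bot_iff, QuotientGroup.ker_mk'] at h
      have := (index_dvd_of_le h).trans k1
      rw [index_eq_card, c360] at this
      omega
    · have h1 : K ⊔ W = ⊤ := by
        have := comap_map_eq π K
        rw [h, comap_top, QuotientGroup.ker_mk'] at this
        exact this.symm
      have h2 : K.index ∣ 4 := by
        rw [← relIndex_top_right, ← h1, relIndex_sup_left, ← cardW]
        exact relIndex_dvd_card _ _
      have := k2.trans h2
      omega

end H5.QwP6
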